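import Mathlib

/-!
# The arithmetic excluding Singer overgroups in dimension seven

A number `u` prime to `p`, dividing a number of size about `q⁶`, such that `g * p ^ a * u + 7` is
divisible by `(q⁶ + … + 1) / g`, does not exist.  For large `q` the cofactor of `u` gives a positive
multiple of the modulus which is too small; for small `q` there are few candidates, checked by
the kernel.
-/

set_option autoImplicit false

namespace Cfsg.Agent.MaxSub.SingerSeven

namespace Arith

/-- The number of points. -/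
def M7 (q : ℕ) : ℕ := q ^ 6 + q ^ 5 + q ^ 4 + q ^ 3 + q ^ 2 + q + 1

/-- The number which `u` divides in general. -/
def T7 (q : ℕ) : ℕ := 30 * (q - 1) ^ 4 * (q + 1) ^ 2

lemma T7_le (q : ℕ) (hq : 2 ≤ q) : T7 q ≤ 30 * M7 q := by
  obtain ⟨e, rfl⟩ : ∃ e, q = e + 1 := ⟨q - 1, by omega⟩
  simp only [T7, M7, add_tsub_cancel_right]
  nlinarith [pow_nonneg (Nat.zero_le e) 5, pow_nonneg (Nat.zero_le e) 4, pow_nonneg (Nat.zero_le e) 3,
    pow_nonneg (Nat.zero_le e) 2]

lemma T7_ident (q : ℕ) (hq : 2 ≤ q) :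
    T7 q * q ^ 2 + 90 * q * M7 q + 30 * (q ^ 3 + 1) =
      (30 * q ^ 2 + 30) * M7 q + 30 * (5 * q ^ 5 + 2 * q ^ 2 + 2 * q) := by
  obtain ⟨e, rfl⟩ : ∃ e, q = e + 1 := ⟨q - 1, by omega⟩
  simp only [T7, M7, add_tsub_cancel_right]
  ring

/-- No solution for large `q`. -/
lemma large {q g k u P c w d : ℕ} (hg : g = 1 ∧ 160 ≤ q ∨ g = 7 ∧ 1100 ≤ q) (hk : g * k = 7)
    (hd : u * d = T7 q) (hdvd : M7 q ∣ g * (u * P + k * c)) (hc : c ≤ q ^ 2) (hw : P * w = q ^ 2)
    (hc1 : 1 ≤ c) : False := by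
  have hq : 160 ≤ q := by omega
  set M := M7 q with hM
  have hMq : q ^ 6 + q ^ 5 ≤ M := by rw [hM]; unfold M7; omega
  have h2 : 160 * q ≤ q ^ 2 := by nlinarith
  have h3 : 160 * q ^ 2 ≤ q ^ 3 := by nlinarith
  have h5 : q ^ 3 ≤ q ^ 5 := Nat.pow_le_pow_right (by omega) (by norm_num)
  have hk0 : 0 < g * (k * c) := by rw [← mul_assoc, hk]; omega
  have hle : M ≤ g * (u * P + k * c) := Nat.le_of_dvd (by rw [mul_add]; omega) hdvd
  have hMle : M ≤ 2 * (g * (u * P)) := by
    rw [mul_add, ← mul_assoc g k c, hk] at hle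
    nlinarith
  have hdle : d ≤ 60 * g * P := by
    refine Nat.le_of_mul_le_mul_right (c := M) ?_ (show 0 < M by rw [hM]; unfold M7; positivity)
    calc d * M ≤ d * (2 * (g * (u * P))) := by gcongr
      _ = 2 * g * P * T7 q := by rw [← hd]; ring
      _ ≤ 2 * g * P * (30 * M) := by gcongr; exact T7_le q (by omega)
      _ = 60 * g * P * M := by ring
  -- multiply by the cofactor
  have h1 : M ∣ g * (T7 q * q ^ 2 + k * c * d * w) := by
    have e : g * (T7 q * q ^ 2 + k * c * d * w) = g * (u * P + k * c) * (d * w) := by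
      rw [← hd, ← hw]; ring
    rw [e]; exact hdvd.mul_right _
  obtain ⟨E, hE⟩ : ∃ E, E + (q ^ 3 + 1) = 5 * q ^ 5 + 2 * q ^ 2 + 2 * q :=
    ⟨_, Nat.sub_add_cancel (by omega)⟩
  have hE5 : E ≤ 5 * q ^ 5 := by omega
  have hE0 : 0 < E := by omega
  have hid := T7_ident q (by omega)
  rw [← hM] at hid
  have h4 : g * (T7 q * q ^ 2 + k * c * d * w) + g * (90 * q) * M =
      g * (30 * q ^ 2 + 30) * M + g * (30 * E + k * c * d * w) := by
    have : T7 q * q ^ 2 + 90 * q * M = (30 * q ^ 2 + 30) * M + 30 * E := by omega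
    linear_combination g * this
  have h6 : M ∣ g * (30 * E + k * c * d * w) :=
    (Nat.dvd_add_right (Dvd.intro_left _ rfl)).mp (h4 ▸ h1.add (Dvd.intro_left _ rfl))
  have hX : g * (k * c * d * w) ≤ 420 * g * q ^ 4 := by
    calc g * (k * c * d * w) = g * k * c * (d * w) := by ring
      _ ≤ 7 * q ^ 2 * (60 * g * P * w) := by rw [hk]; gcongr
      _ = 420 * g * q ^ 4 := by rw [mul_assoc (60 * g), hw]; ring
  have hlt : g * (30 * E + k * c * d * w) < M := by
    rw [mul_add]
    rcases hg with ⟨rfl, h⟩ | ⟨rfl, h⟩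
    · have : 150 * q + 420 < q ^ 2 := by nlinarith
      have : (150 * q + 420) * q ^ 4 ≤ q ^ 2 * q ^ 4 := by gcongr
      nlinarith
    · have : 1050 * q + 2940 < q ^ 2 := by nlinarith
      have : (1050 * q + 2940) * q ^ 4 ≤ q ^ 2 * q ^ 4 := by gcongr
      nlinarith
  have := Nat.eq_zero_of_dvd_of_lt h6 hlt
  rcases hg with ⟨rfl, -⟩ | ⟨rfl, -⟩ <;> omega

/-! ### The small cases -/

/-- A quick primality test below `1100`. -/
def isP (p : ℕ) : Bool := 2 ≤ p && (List.range 34).all fun d => d < 2 || p ≤ d || p % d != 0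

lemma isP_of_prime {p : ℕ} (hp : p.Prime) : isP p = true := by
  simp only [isP, Bool.and_eq_true, decide_eq_true_eq, List.all_eq_true, List.mem_range,
    Bool.or_eq_true, bne_iff_ne]
  refine ⟨hp.two_le, fun d _ => ?_⟩
  by_cases h1 : d < 2
  · exact Or.inl (Or.inl h1)
  by_cases h2 : p ≤ d
  · exact Or.inl (Or.inr h2)
  refine Or.inr fun h3 => ?_
  rcases (Nat.dvd_prime hp).mp (Nat.dvd_of_mod_eq_zero h3) with h | h <;> omega

/-- `g`. -/
def gv (q : ℕ) : ℕ := if (q - 1) % 7 = 0 then 7 else 1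

/-- The residue of `u`. -/
def res (p f b : ℕ) : ℕ :=
  let q := p ^ f
  let m := M7 q / gv q
  (m - 7 / gv q * q ^ 2 * p ^ (7 * f - b) % m) % m

/-- The test for one prime power. -/
def chk (p f T : ℕ) : Bool :=
  let q := p ^ f
  let m := M7 q / gv q
  (List.range (4 * f + 1)).all fun b =>
    let r := res p f b
    (List.range (T / m + 1)).all fun i => T % (r + m * i) != 0 || (r + m * i) % p == 0

/-- All small prime powers. -/
def chkAll : Bool :=
  (List.range 1100).all fun p => !isP p || (List.range 11).all fun f =>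
    f == 0 || 1100 ≤ p ^ f || (160 ≤ p ^ f && gv (p ^ f) == 1) || chk p f (T7 (p ^ f))

theorem chkAll_true : chkAll = true := by decide +kernel

theorem chk_two : chk 2 1 (5 * 1 ^ 4 * 3 ^ 2 * 5 * 7) = true := by decide +kernel

theorem chk_four : chk 2 2 (5 * 3 ^ 4 * 5 ^ 2 * 17 * 21) = true := by decide +kernel

/-- All products of one divisor of each entry. -/
def dvs : List ℕ → List ℕ
  | [] => [1]
  | a :: L => ((List.range (a + 1)).filter fun d => d != 0 && a % d == 0).flatMap fun d =>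
      (dvs L).map (d * ·)

lemma mem_dvs : ∀ {L : List ℕ} {u : ℕ}, L.prod ≠ 0 → u ∣ L.prod → u ∈ dvs L
  | [], u, _, hu => by simpa [dvs] using hu
  | a :: L, u, h0, hu => by
    rw [List.prod_cons] at hu h0
    obtain ⟨x, y, hx, hy, rfl⟩ := Nat.dvd_mul.mp hu
    simp only [mul_ne_zero_iff] at h0
    simp only [dvs, List.mem_flatMap, List.mem_filter, List.mem_range, List.mem_map]
    refine ⟨x, ⟨?_, ?_⟩, y, mem_dvs h0.2 hy, rfl⟩
    · have := Nat.le_of_dvd (Nat.pos_of_ne_zero h0.1) hx; omega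
    · simp [Nat.ne_of_gt (Nat.pos_of_dvd_of_pos hx (Nat.pos_of_ne_zero h0.1)), Nat.mod_eq_zero_of_dvd hx]

/-- The test for `q = 5`. -/
def chkFive : Bool :=
  (dvs [4 ^ 4, 36, 26, 31, 11, 71]).all fun u =>
    u % 5 == 0 || (List.range 5).all fun b => u % M7 5 != res 5 1 b

theorem chkFive_true : chkFive = true := by decide +kernel

lemma dvd_pred_pow_seven (q : ℕ) (hq : 1 ≤ q) : q ^ 7 = (q - 1) * M7 q + 1 := by
  obtain ⟨e, rfl⟩ : ∃ e, q = e + 1 := ⟨q - 1, by omega⟩
  simp only [M7, add_tsub_cancel_right]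
  ring

end Arith

open Arith in
/-- The pair stabiliser order `p ^ a * u` allowed by the Sylow congruence does not exist. -/
theorem no_solution {p f q g a u : ℕ} (hp : p.Prime) (hf : 1 ≤ f) (hq : q = p ^ f)
    (hg : g = Nat.gcd 7 (q - 1)) (ha : 5 * f ≤ a) (ha' : a ≤ 9 * f) (hu : ¬ p ∣ u)
    (hT : u ∣ 30 * (q - 1) ^ 4 * (q + 1) ^ 2 ∨
      ((q = 2 ∨ q = 4) ∧ u ∣ 5 * (q - 1) ^ 4 * (q + 1) ^ 2 * (q ^ 2 + 1) * (q ^ 2 + q + 1)) ∨
      (q = 5 ∧ u ∣ (q - 1) ^ 4 * (q + 1) ^ 2 * (q ^ 2 + 1) * (q ^ 2 + q + 1) *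
        (q ^ 4 + q ^ 3 + q ^ 2 + q + 1)))
    (hM : q ^ 6 + q ^ 5 + q ^ 4 + q ^ 3 + q ^ 2 + q + 1 ∣ g * (g * (p ^ a * u) + 7)) : False := by
  change M7 q ∣ _ at hM
  have hq2 : 2 ≤ q := by
    rw [hq]; exact le_trans hp.two_le (Nat.le_self_pow (by omega) p)
  have hu0 : u ≠ 0 := fun h => hu (h ▸ dvd_zero p)
  have hgv : g = gv q ∧ (g = 1 ∨ g = 7) ∧ (g = 7 → 7 ∣ q - 1) := by
    rw [hg]; unfold gv
    rcases Nat.coprime_or_dvd_of_prime (p := 7) (by norm_num) (q - 1) with h | h
    · rw [h.gcd_eq_one, if_neg]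
      · simp
      · intro h0
        have := Nat.Prime.coprime_iff_not_dvd (by norm_num : Nat.Prime 7) |>.mp h
        exact this (Nat.dvd_of_mod_eq_zero h0)
    · rw [Nat.gcd_eq_left h, if_pos (Nat.mod_eq_zero_of_dvd h)]; simp [h]
  obtain ⟨hgv, hg17, hg7⟩ := hgv
  obtain ⟨b, rfl⟩ : ∃ b, a = 5 * f + b := ⟨a - 5 * f, by omega⟩
  have hb : b ≤ 4 * f := by omega
  obtain ⟨m, hm⟩ : g ∣ M7 q := by
    rcases hg17 with h | h
    · rw [h]; exact one_dvd _
    · obtain ⟨t, ht⟩ := hg7 h
      have : q = 7 * t + 1 := by omega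
      rw [h, this]; simp [M7, Nat.dvd_iff_mod_eq_zero, Nat.add_mod, Nat.pow_mod]
  have hgpos : 0 < g := by omega
  -- `m ∣ u p ^ b + k q ^ 2`
  set k := 7 / g with hk'
  have hk : g * k = 7 := by rcases hg17 with h | h <;> simp [hk', h]
  have hA : M7 q ∣ g * (p ^ (5 * f + b) * u + k) := by
    rcases hg17 with h | h
    · subst h; simpa [hk'] using hM
    · have hk1 : k = 1 := by simp [hk', h]
      rw [hk1]
      rw [h] at hM hm ⊢
      have hcop : Nat.Coprime m 7 := by
        refine ((Nat.Prime.coprime_iff_not_dvd (by norm_num)).mpr fun hdiv => ?_).symm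
        obtain ⟨t, ht⟩ := hg7 h
        obtain ⟨s, hs⟩ := hdiv
        have hqt : q = 7 * t + 1 := by omega
        have h49 : M7 q % 49 = 7 := by
          rw [hqt]; unfold M7
          have : ∀ i, (7 * t + 1) ^ i % 49 = (7 * (i * t) + 1) % 49 := by
            intro i
            induction i with
            | zero => simp
            | succ i ih =>
              rw [pow_succ, Nat.mul_mod, ih, ← Nat.mul_mod]
              have e : (7 * (i * t) + 1) * (7 * t + 1) =
                  (7 * ((i + 1) * t) + 1) + 49 * (i * t * t) := by ring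
              rw [e, Nat.add_mul_mod_self_left]
          have h1 := this 6; have h2 := this 5; have h3 := this 4; have h4 := this 3
          have h5 := this 2
          omega
        omega
      have h1 : m ∣ 7 * (p ^ (5 * f + b) * u + 1) := by
        rw [hm] at hM
        have := (Nat.mul_dvd_mul_iff_left (by norm_num : 0 < 7)).mp hM
        convert this using 1; ring
      rw [hm]
      exact Nat.mul_dvd_mul_left 7 (hcop.dvd_of_dvd_mul_left h1)
  have hB : M7 q ∣ g * (u * p ^ b + k * q ^ 2) := by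
    have h1 := hA.mul_right (q ^ 2)
    have h7 := dvd_pred_pow_seven q (by omega)
    have hq5 : p ^ (5 * f) = q ^ 5 := by rw [hq, ← pow_mul, mul_comm]
    have e : g * (p ^ (5 * f + b) * u + k) * q ^ 2 =
        g * (u * p ^ b) * (q - 1) * M7 q + g * (u * p ^ b + k * q ^ 2) := by
      rw [pow_add, hq5]; linear_combination g * u * p ^ b * h7
    rw [e] at h1
    exact (Nat.dvd_add_right (Dvd.intro_left _ rfl)).mp h1
  -- the candidates
  have hmpos : 0 < m := by
    rcases Nat.eq_zero_or_pos m with h | h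
    · rw [h, mul_zero] at hm; unfold M7 at hm; omega
    · exact h
  have hmg : M7 q / g = m := by rw [hm, Nat.mul_div_cancel_left _ hgpos]
  have hres : u % m = res p f b := by
    have h1 : m ∣ u + k * q ^ 2 * p ^ (7 * f - b) := by
      rw [hm] at hB
      have h2 := ((Nat.mul_dvd_mul_iff_left hgpos).mp hB).mul_right (p ^ (7 * f - b))
      have h7 := dvd_pred_pow_seven q (by omega)
      have e7 : p ^ b * p ^ (7 * f - b) = q ^ 7 := by
        rw [← pow_add, hq, ← pow_mul]; congr 1; omega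
      have e : (u * p ^ b + k * q ^ 2) * p ^ (7 * f - b) =
          u * (q - 1) * g * m + (u + k * q ^ 2 * p ^ (7 * f - b)) := by
        rw [hm] at h7; linear_combination u * e7 + u * h7
      rw [e] at h2
      exact (Nat.dvd_add_right (Dvd.intro_left _ rfl)).mp h2
    have h0 := Nat.mod_eq_zero_of_dvd h1
    rw [Nat.add_mod] at h0
    simp only [res, ← hq, ← hgv, hmg, ← hk']
    have hA1 := Nat.mod_lt u hmpos
    have hB1 := Nat.mod_lt (k * q ^ 2 * p ^ (7 * f - b)) hmpos
    generalize u % m = x at *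
    generalize k * q ^ 2 * p ^ (7 * f - b) % m = y at *
    rcases lt_or_ge (x + y) m with h | h
    · rw [Nat.mod_eq_of_lt h] at h0
      rw [show y = 0 by omega, Nat.sub_zero, Nat.mod_self]; omega
    · rw [Nat.mod_eq_sub_mod h, Nat.mod_eq_of_lt (by omega)] at h0
      rw [Nat.mod_eq_of_lt (by omega)]; omega
  have hchk : ∀ T, T ≠ 0 → chk p f T = true → u ∣ T → False := by
    intro T hT0 hc hdvd
    simp only [chk, List.all_eq_true, List.mem_range, ← hq, ← hgv, hmg, Bool.or_eq_true,
      bne_iff_ne, beq_iff_eq] at hc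
    rcases hc b (by omega) (u / m) (Nat.lt_succ_of_le (Nat.div_le_div_right
      (Nat.le_of_dvd (Nat.pos_of_ne_zero hT0) hdvd))) with h | h <;>
      rw [← hres, Nat.mod_add_div] at h
    · exact h (Nat.mod_eq_zero_of_dvd hdvd)
    · exact hu (Nat.dvd_of_mod_eq_zero h)
  have hpf : ∀ {r e : ℕ}, r.Prime → p ^ f = r ^ e → p = r ∧ f = e := by
    intro r e hr h
    have h1 : p = r := (Nat.prime_dvd_prime_iff_eq hp hr).mp
      (hp.dvd_of_dvd_pow (h ▸ dvd_pow_self p (by omega)))
    subst h1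
    exact ⟨rfl, Nat.pow_right_injective hp.two_le h⟩
  rcases hT with hT | ⟨h24, hT⟩ | ⟨h5, hT⟩
  · change u ∣ T7 q at hT
    by_cases hbig : g = 1 ∧ 160 ≤ q ∨ g = 7 ∧ 1100 ≤ q
    · obtain ⟨d, hd⟩ := hT
      have hpM : Nat.Coprime (M7 q) p := by
        refine ((hp.coprime_iff_not_dvd).mpr fun h => ?_).symm
        have hqd : p ∣ q := hq ▸ dvd_pow_self p (by omega)
        have : p ∣ q * (q ^ 5 + q ^ 4 + q ^ 3 + q ^ 2 + q + 1) := hqd.mul_right _
        have e : M7 q = q * (q ^ 5 + q ^ 4 + q ^ 3 + q ^ 2 + q + 1) + 1 := by unfold M7; ring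
        rw [e] at h
        exact hp.one_lt.ne' (Nat.dvd_one.mp ((Nat.dvd_add_right this).mp h))
      by_cases hb2 : b ≤ 2 * f
      · have hc : p ^ b * p ^ (2 * f - b) = q ^ 2 := by
          rw [← pow_add, hq, ← pow_mul]; congr 1; omega
        refine large (P := 1) (c := p ^ (2 * f - b)) (w := q ^ 2) hbig hk hd.symm ?_ ?_ (one_mul _)
          (Nat.one_le_pow _ _ hp.pos)
        · rw [← hc] at hB
          have e : g * (u * p ^ b + k * (p ^ b * p ^ (2 * f - b))) =
              p ^ b * (g * (u * 1 + k * p ^ (2 * f - b))) := by ring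
          rw [e] at hB
          exact (hpM.pow_right b).dvd_of_dvd_mul_left hB
        · rw [← hc]; exact Nat.le_mul_of_pos_left _ (pow_pos hp.pos _)
      · have hP : q ^ 2 * p ^ (b - 2 * f) = p ^ b := by
          rw [hq, ← pow_mul, ← pow_add]; congr 1; omega
        have hw : p ^ (b - 2 * f) * p ^ (4 * f - b) = q ^ 2 := by
          rw [← pow_add, hq, ← pow_mul]; congr 1; omega
        refine large (P := p ^ (b - 2 * f)) (c := 1) hbig hk hd.symm ?_
          (Nat.one_le_pow _ _ (by omega)) hw le_rfl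
        rw [← hP] at hB
        have e : g * (u * (q ^ 2 * p ^ (b - 2 * f)) + k * q ^ 2) =
            q ^ 2 * (g * (u * p ^ (b - 2 * f) + k * 1)) := by ring
        rw [e] at hB
        refine Nat.Coprime.dvd_of_dvd_mul_left ?_ hB
        rw [show q ^ 2 = p ^ (f * 2) by rw [hq, pow_mul]]; exact hpM.pow_right _
    · have hq1100 : p ^ f < 1100 := by rw [← hq]; omega
      have hf11 : f < 11 := by
        by_contra h
        have h1 : 2 ^ 11 ≤ p ^ f :=
          (Nat.pow_le_pow_left hp.two_le 11).trans (Nat.pow_le_pow_right hp.pos (by omega))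
        omega
      have hp1100 : p < 1100 := lt_of_le_of_lt (Nat.le_self_pow (by omega) p) hq1100
      have hall := chkAll_true
      simp only [chkAll, List.all_eq_true, List.mem_range, Bool.or_eq_true] at hall
      have h1 := hall p hp1100
      simp only [isP_of_prime hp, Bool.not_true, Bool.false_eq_true, false_or,
        beq_iff_eq, decide_eq_true_eq, Bool.and_eq_true] at h1
      have h2 := h1 f hf11
      rw [← hq] at h2 hq1100
      rcases h2 with ((h | h) | ⟨h, h'⟩) | h
      · omega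
      · omega
      · rw [← hgv] at h'; omega
      · refine hchk _ ?_ h hT
        have : 0 < q - 1 := by omega
        unfold T7; positivity
  · rcases h24 with h | h
    · obtain ⟨rfl, rfl⟩ := hpf (r := 2) (e := 1) Nat.prime_two (by omega)
      subst h
      exact hchk _ (by norm_num) chk_two (by norm_num at hT ⊢; exact hT)
    · obtain ⟨rfl, rfl⟩ := hpf (r := 2) (e := 2) Nat.prime_two (by omega)
      subst h
      exact hchk _ (by norm_num) chk_four (by norm_num at hT ⊢; exact hT)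
  · obtain ⟨rfl, rfl⟩ := hpf (r := 5) (e := 1) (by norm_num) (by omega)
    subst h5
    have hg1 : g = 1 := by rw [hgv]; rfl
    have hm5 : m = M7 5 := by rw [hm, hg1, one_mul]
    have hmem : u ∈ dvs [4 ^ 4, 36, 26, 31, 11, 71] := mem_dvs (by norm_num) (by norm_num at hT ⊢; exact hT)
    have hall := chkFive_true
    simp only [chkFive, List.all_eq_true, List.mem_range, Bool.or_eq_true, bne_iff_ne,
      beq_iff_eq] at hall
    rcases hall u hmem with h | h
    · exact hu (Nat.dvd_of_mod_eq_zero h)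
    · exact h b (by omega) (by rw [← hm5]; exact hres)

end Cfsg.Agent.MaxSub.SingerSeven
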