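import Cfsg.Agent.MaxSub.SingerSeven.Def
import Cfsg.Agent.MaxSub.SingerGroup.Basic

/-!
The dichotomy behind the Singer clause in dimension seven: without a centre element, the only
elements fixing two points `⟨x⟩, ⟨u⟩` and scalar modulo the line `⟨x, u⟩` are the scalars.
-/

set_option autoImplicit false
set_option linter.unusedSectionVars false
set_option linter.style.haveILetI false

namespace Cfsg.Agent.MaxSub.SingerSeven

open Matrix
open scoped MatrixGroups
open SingerFive Cfsg.Geo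

variable {F : Type*} [Field F] [Fintype F] {n : ℕ} {X : Subgroup (GL (Fin n) F)}
  {x u : Fin n → F}

local notation "V" => (Fin n → F)

lemma pairStab_symm : pairStab X x u = pairStab X u x := by
  ext g; simp only [mem_pairStab]; tauto

/-- An element fixing both lines and scalar modulo the line commutes with the pair stabiliser. -/
theorem commute_of_fix (hX : NoCen X) (hxu : LinearIndependent F ![x, u]) {g h : GL (Fin n) F}
    (hg : g ∈ X) {α β l : F} (hα : α ≠ 0) (hβ : β ≠ 0) (ea : lin g x = α • x) (eb : lin g u = β • u)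
    (hL : ∀ v, lin g v - l • v ∈ Submodule.span F {x, u}) (hh : h ∈ pairStab X x u) :
    h * g = g * h := by
  obtain ⟨hhX, ⟨a, ha, ex⟩, b, hb, eu⟩ := hh
  have inv_fix : ∀ (k : GL (Fin n) F) (y : V) (c : F), c ≠ 0 → lin k y = c • y →
      lin k⁻¹ y = c⁻¹ • y := fun k y c hc e => by
    conv_rhs => rw [← lin_inv_apply k y, e, map_smul, inv_smul_smul₀ hc]
  have stable : ∀ (k : GL (Fin n) F) (c d : F), lin k x = c • x → lin k u = d • u →
      ∀ w ∈ Submodule.span F {x, u}, lin k w ∈ Submodule.span F {x, u} := by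
    intro k c d e1 e2 w hw
    obtain ⟨s, t, rfl⟩ := Submodule.mem_span_pair.1 hw
    rw [map_add, map_smul, map_smul, e1, e2, smul_smul, smul_smul]
    exact Submodule.mem_span_pair.2 ⟨_, _, rfl⟩
  set d := g⁻¹ * h * g * h⁻¹ with hd
  suffices hd1 : d = 1 by
    have : g * d * h = g * h := by rw [hd1, mul_one]
    rw [hd] at this
    rw [← this]; group
  by_contra hne
  have hfix : ∀ (y : V) (c e : F), c ≠ 0 → e ≠ 0 → lin h y = c • y → lin g y = e • y →
      lin d y = y := by
    intro y c e hc he e1 e2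
    rw [hd, lin_mul_apply, lin_mul_apply, lin_mul_apply, inv_fix h y c hc e1]
    simp only [map_smul, e1, e2, inv_fix g y e he e2, smul_smul]
    rw [show c⁻¹ * e * c * e⁻¹ = (c⁻¹ * c) * (e * e⁻¹) by ring, inv_mul_cancel₀ hc,
      mul_inv_cancel₀ he, one_mul, one_smul]
  refine hX d x u ⟨hxu, ?_, hne, hfix x a α ha hα ex ea, ?_, fun v => ?_⟩
  · exact X.mul_mem (X.mul_mem (X.mul_mem (X.inv_mem hg) hhX) hg) (X.inv_mem hhX)
  · rw [hfix u b β hb hβ eu eb, sub_self]; exact Submodule.zero_mem _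
  set w := lin h⁻¹ v with hw
  have hv : v = lin h w := (lin_apply_inv h v).symm
  have key : lin h (lin g w) - lin g (lin h w) ∈ Submodule.span F {x, u} := by
    have h1 := stable h a b ex eu _ (hL w)
    have h2 := hL (lin h w)
    rw [map_sub, map_smul] at h1
    have := Submodule.sub_mem _ h1 h2
    convert this using 1; abel
  have h3 := stable g⁻¹ α⁻¹ β⁻¹ (inv_fix g x α hα ea) (inv_fix g u β hβ eb) _ key
  rw [map_sub, lin_inv_apply] at h3
  rw [hd, lin_mul_apply, lin_mul_apply, lin_mul_apply, ← hw]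
  conv => arg 2; arg 2; rw [hv]
  exact h3

/-- Equal eigenvalues: the element is scalar. -/
theorem scalar_of_eq (hX : NoCen X) (hxu : LinearIndependent F ![x, u]) {g : GL (Fin n) F}
    (hg : g ∈ X) {l : F} (hl : l ≠ 0) (ea : lin g x = l • x) (eb : lin g u = l • u)
    (hL : ∀ v, lin g v - l • v ∈ Submodule.span F {x, u}) : ∀ v, lin g v = l • v := by
  have hN : ∀ v, lin g (lin g v - l • v) = l • (lin g v - l • v) := by
    intro v
    obtain ⟨s, t, e⟩ := Submodule.mem_span_pair.1 (hL v)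
    rw [← e, map_add, map_smul, map_smul, ea, eb, smul_add, smul_comm s, smul_comm t]
  have hpow : ∀ (j : ℕ) (v : V), lin (g ^ (j + 1)) v =
      l ^ (j + 1) • v + ((j + 1 : ℕ) * l ^ j : F) • (lin g v - l • v) := by
    intro j
    induction j with
    | zero => intro v; simp
    | succ j ih =>
      intro v
      rw [pow_succ' g (j + 1), lin_mul_apply, ih, map_add, map_smul, map_smul, hN]
      push_cast
      match_scalars <;> ring
  have hq1 : 1 < Fintype.card F := Fintype.one_lt_card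
  obtain ⟨j, hj⟩ : ∃ j, Fintype.card F - 1 = j + 1 := ⟨Fintype.card F - 2, by omega⟩
  have hl1 : l ^ (j + 1) = 1 := hj ▸ FiniteField.pow_card_sub_one_eq_one l hl
  have hcast : ((j + 1 : ℕ) : F) = -1 := by
    have h0 : ((j + 1 + 1 : ℕ) : F) = 0 := by
      rw [show j + 1 + 1 = Fintype.card F by omega]; exact FiniteField.cast_card_eq_zero F
    push_cast at h0 ⊢
    linear_combination h0
  intro v
  by_contra hne
  have hv : ∀ w, lin (g ^ (j + 1)) w - w = (-(l ^ j)) • (lin g w - l • w) := by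
    intro w
    rw [hpow, hl1, hcast, one_smul, add_sub_cancel_left, neg_one_mul]
  refine hX (g ^ (j + 1)) x u ⟨hxu, X.pow_mem hg _, fun h1 => hne ?_, ?_, ?_, fun w => ?_⟩
  · have h2 := hv v
    rw [h1, lin_one_apply, sub_self, eq_comm, smul_eq_zero] at h2
    exact sub_eq_zero.1 (h2.resolve_left (neg_ne_zero.2 (pow_ne_zero _ hl)))
  · rw [← sub_eq_zero, hv, ea, sub_self, smul_zero]
  · rw [hv, eb, sub_self, smul_zero]; exact Submodule.zero_mem _
  · rw [hv]; exact Submodule.smul_mem _ _ (hL w)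

/-- The stabiliser in the line group of a vector or functional contains a copy of `pairStab`. -/
lemma card_dvd_of_embed {L : Type*} [Group L] [Finite L] (T : Subgroup L) {G : Type*} [Group G]
    (f : L →* G) (H : Subgroup G) [Finite H] (hex : ∀ h ∈ H, ∃ p ∈ T, f p = h)
    (huniq : ∀ p ∈ T, f p = 1 → p = 1) : Nat.card H ∣ Nat.card T := by
  have hle : H ≤ T.map f := fun h hh => by
    obtain ⟨p, hp, e⟩ := hex h hh; exact ⟨p, hp, e⟩
  have hc : Nat.card (T.map f) = Nat.card T := by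
    have hinj : Function.Injective (fun p : T => f p.1) := fun p p' e => by
      refine Subtype.ext (inv_mul_eq_one.1 (huniq _ (T.mul_mem (T.inv_mem p.2) p'.2) ?_))
      rw [map_mul, map_inv]; exact inv_mul_eq_one.2 e
    exact (Nat.card_congr (Equiv.ofBijective (fun p : T => (⟨f p.1, p.1, p.2, rfl⟩ : T.map f))
      ⟨fun p p' e => hinj (congrArg Subtype.val e), fun ⟨_, p, hp, e⟩ => ⟨⟨p, hp⟩, Subtype.ext e⟩⟩)).symm
  exact hc ▸ Subgroup.card_dvd_of_le hle

/-- Seven-dimensional: an element fixing both lines, scalar modulo the line, has the same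
eigenvalue at both points. -/
theorem eq_of_fix {X : Subgroup (GL (Fin 7) F)} {x u : Fin 7 → F} (hX : NoCen X) (hP : PairTrans X)
    (hxu : LinearIndependent F ![x, u]) {g : GL (Fin 7) F} (hg : g ∈ X) {α β l : F}
    (hα : α ≠ 0) (hβ : β ≠ 0) (ea : lin g x = α • x) (eb : lin g u = β • u)
    (hL : ∀ v, lin g v - l • v ∈ Submodule.span F {x, u}) : α = l := by
  classical
  by_contra hne
  set q := Fintype.card F with hqdef
  have hq1 : 1 < q := Fintype.one_lt_card
  have hx : x ≠ 0 := hxu.ne_zero 0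
  have hu : u ∉ Submodule.span F {x} := (SingerFive.indep_iff hx).1 hxu
  have hu0 : u ≠ 0 := hxu.ne_zero 1
  have hxu' : x ∉ Submodule.span F {u} :=
    (SingerFive.indep_iff hu0).1 (LinearIndependent.pair_symm_iff.1 hxu)
  obtain ⟨ψ, hψx, hψ⟩ := GeoClasses.exists_functional hxu'
  have hψu : ψ u = 0 := hψ _ (Submodule.mem_span_singleton_self u)
  set φ : (Fin 7 → F) →ₗ[F] F := (α - l)⁻¹ • (ψ ∘ₗ (lin g - l • LinearMap.id)) with hφ
  have hφv : ∀ v, φ v = (α - l)⁻¹ * ψ (lin g v - l • v) := fun v => rfl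
  have hφx : φ x = 1 := by
    rw [hφv, ea, ← sub_smul, map_smul, hψx, smul_eq_mul, mul_one, inv_mul_cancel₀ (sub_ne_zero.2 hne)]
  have hφ0 : φ ≠ 0 := fun h => by simp [h] at hφx
  set L := lineGroup X x
  let π : L →* GL (Fin 7) F :=
    X.subtype.comp ((MonoidHom.fst _ _).comp (L.subtype : L →* ↥X × Fˣ))
  -- the stabiliser of `u`
  have hstab_u : MulAction.stabilizer L u ≃ pairStab X x u := by
    refine Equiv.ofBijective (fun p => ⟨π p.1, ?_⟩) ⟨?_, ?_⟩
    · obtain ⟨⟨⟨k, c⟩, hk⟩, hp⟩ := p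
      obtain ⟨a, ha, ex⟩ := hk
      refine ⟨k.2, ⟨a, ha, ex⟩, (c : F)⁻¹, inv_ne_zero c.ne_zero, ?_⟩
      have e : (c : F) • lin (k : GL (Fin 7) F) u = u := hp
      show lin (k : GL (Fin 7) F) u = _
      conv_rhs => rw [← e, inv_smul_smul₀ c.ne_zero]
    · rintro ⟨⟨⟨k, c⟩, hk⟩, hp⟩ ⟨⟨⟨k', c'⟩, hk'⟩, hp'⟩ e
      have e' : (k : GL (Fin 7) F) = (k' : GL (Fin 7) F) := congrArg (Subtype.val : ↥(pairStab X x u) → _) e
      have ek : k = k' := Subtype.ext e'
      subst ek
      have e1 : (c : F) • lin (k : GL (Fin 7) F) u = u := hp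
      have e2 : (c' : F) • lin (k : GL (Fin 7) F) u = u := hp'
      have hnz : lin (k : GL (Fin 7) F) u ≠ 0 := fun h0 => hu0 (by rw [← e1, h0, smul_zero])
      have : c = c' := Units.ext (smul_left_injective F hnz (e1.trans e2.symm))
      subst this
      rfl
    · rintro ⟨k, hkX, ⟨a, ha, ex⟩, b, hb, eu⟩
      refine ⟨⟨⟨(⟨k, hkX⟩, Units.mk0 b⁻¹ (inv_ne_zero hb)), a, ha, ex⟩, ?_⟩, rfl⟩
      show (b⁻¹ : F) • lin k u = u
      rw [eu, inv_smul_smul₀ hb]
  have horb_u : MulAction.orbit L u = (Submodule.span F {x} : Set (Fin 7 → F))ᶜ := by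
    ext v
    constructor
    · rintro ⟨⟨⟨k, c⟩, hk⟩, rfl⟩
      obtain ⟨a, ha, ex⟩ := hk
      intro hmem
      obtain ⟨s, hs⟩ := Submodule.mem_span_singleton.1 hmem
      refine hu (Submodule.mem_span_singleton.2 ⟨(c : F)⁻¹ * s * a⁻¹, ?_⟩)
      have hs' : s • x = (c : F) • lin (k : GL (Fin 7) F) u := hs
      have h1 : lin (k : GL (Fin 7) F) (((c : F)⁻¹ * s * a⁻¹) • x) = lin (k : GL (Fin 7) F) u := by
        rw [map_smul, ex, smul_smul, inv_mul_cancel_right₀ ha, mul_smul, hs',
          inv_smul_smul₀ c.ne_zero]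
      have := congrArg (lin (k : GL (Fin 7) F)⁻¹) h1
      rwa [lin_inv_apply, lin_inv_apply] at this
    · intro hv
      obtain ⟨k, hk, a, b, ex, ev⟩ := hP x u x v hxu ((SingerFive.indep_iff hx).2 hv)
      have ex' : lin k x = a • x := by simpa using ex
      have ev' : lin k u = b • v := by simpa using ev
      have ha : a ≠ 0 := fun h => hx (by rw [← lin_inv_apply k x, ex', h, zero_smul, map_zero])
      have hb : b ≠ 0 := fun h => hu0 (by rw [← lin_inv_apply k u, ev', h, zero_smul, map_zero])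
      refine ⟨⟨(⟨k, hk⟩, Units.mk0 b⁻¹ (inv_ne_zero hb)), a, ha, ex'⟩, ?_⟩
      show (b⁻¹ : F) • lin k u = v
      rw [ev', inv_smul_smul₀ hb]
  have cardL1 : Nat.card L = (q ^ 7 - q) * Nat.card (pairStab X x u) := by
    have h := Nat.card_congr (MulAction.orbitProdStabilizerEquivGroup L u)
    rw [Nat.card_prod, Nat.card_congr hstab_u, horb_u, Nat.card_coe_set_eq, Set.ncard_compl] at h
    rw [← h, ← Nat.card_coe_set_eq, SetLike.coe_sort_coe, natCard_submodule,
      finrank_span_singleton hx, pow_one, Nat.card_fun, Nat.card_fin, Nat.card_eq_fintype_card]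
  -- the stabiliser of `φ`
  set S := MulAction.stabilizer L (φ : DualSp F 7)
  have hdvdS : Nat.card (pairStab X x u) ∣ Nat.card S := by
    refine card_dvd_of_embed S π _ (fun h hh => ?_) (fun p hp e => ?_)
    · have hcom := commute_of_fix hX hxu hg hα hβ ea eb hL hh
      obtain ⟨hhX, ⟨a, ha, ex⟩, b, hb, eu⟩ := hh
      refine ⟨⟨(⟨h, hhX⟩, Units.mk0 a⁻¹ (inv_ne_zero ha)), a, ha, ex⟩, ?_, rfl⟩
      refine LinearMap.ext (σ := RingHom.id F) fun v => ?_
      rw [lineActDual_apply]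
      show (((Units.mk0 a⁻¹ (inv_ne_zero ha))⁻¹ : Fˣ) : F) * φ (lin h⁻¹ v) = φ v
      rw [Units.val_inv_eq_inv_val, Units.val_mk0, inv_inv]
      have hψh : ∀ w ∈ Submodule.span F {x, u}, ψ (lin h w) = a * ψ w := by
        intro w hw
        obtain ⟨s, t, rfl⟩ := Submodule.mem_span_pair.1 hw
        simp only [map_add, map_smul, ex, eu, hψx, hψu, smul_eq_mul]
        ring
      conv_rhs => rw [← lin_apply_inv h v, hφv]
      set w := lin h⁻¹ v with hw
      have hgw : lin g (lin h w) - l • lin h w = lin h (lin g w - l • w) := by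
        rw [map_sub, map_smul, ← lin_mul_apply g h, ← hcom, lin_mul_apply h g]
      rw [hgw, hψh _ (hL w), hφv]
      ring
    · obtain ⟨⟨k, c⟩, hk⟩ := p
      have ek : k = 1 := Subtype.ext e
      subst ek
      have h1 := DFunLike.congr_fun (F := (Fin 7 → F) →ₗ[F] F) hp x
      rw [lineActDual_apply] at h1
      simp only [OneMemClass.coe_one, inv_one, lin_one_apply, hφx, mul_one] at h1
      have hc : c = 1 := by
        rw [← inv_eq_one]; exact Units.ext h1
      subst hc
      rfl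
  have horb_φ : MulAction.orbit L (φ : DualSp F 7) = {θ : DualSp F 7 | (θ : (Fin 7 → F) →ₗ[F] F) x ≠ 0} := by
    ext θ
    constructor
    · rintro ⟨p, rfl⟩
      obtain ⟨a, ha, ex⟩ := p.2
      have e' : lin ((p : ↥X × Fˣ).1 : GL (Fin 7) F)⁻¹ x = a⁻¹ • x := by
        conv_rhs => rw [← lin_inv_apply ((p : ↥X × Fˣ).1 : GL (Fin 7) F) x, ex, map_smul, inv_smul_smul₀ ha]
      show (p • (φ : DualSp F 7) : (Fin 7 → F) →ₗ[F] F) x ≠ 0
      rw [lineActDual_apply, e', map_smul, hφx, smul_eq_mul, mul_one]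
      exact mul_ne_zero (Units.ne_zero _) (inv_ne_zero ha)
    · intro hθ
      have hθ' : (θ : (Fin 7 → F) →ₗ[F] F) x ≠ 0 := hθ
      exact hP.dual_orbit (by norm_num) hx hφ0 (fun h => hθ' (by simp [h])) (by simp [hθ', hφx])
  have cardL2 : Nat.card L = (q ^ 7 - q ^ 6) * Nat.card S := by
    have h := Nat.card_congr (MulAction.orbitProdStabilizerEquivGroup L (φ : DualSp F 7))
    rw [Nat.card_prod, horb_φ, Nat.card_coe_set_eq] at h
    rw [← h]
    congr 1
    let e : ((Fin 7 → F) →ₗ[F] F) →ₗ[F] F := LinearMap.applyₗ x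
    have hsur : Function.Surjective e := fun t => ⟨t • φ, by simp [e, hφx]⟩
    have h1 := LinearMap.finrank_range_add_finrank_ker e
    rw [LinearMap.range_eq_top.2 hsur, finrank_top, Module.finrank_self, Subspace.dual_finrank_eq,
      Module.finrank_fin_fun] at h1
    have hk : Nat.card (LinearMap.ker e) = q ^ 6 := by
      rw [Module.natCard_eq_pow_finrank (K := F), Nat.card_eq_fintype_card,
        show Module.finrank F (LinearMap.ker e) = 6 by omega]
    have ht : Nat.card (DualSp F 7) = q ^ 7 := by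
      rw [Module.natCard_eq_pow_finrank (K := F), Nat.card_eq_fintype_card,
        Subspace.dual_finrank_eq, Module.finrank_fin_fun]
    have hset : {θ : DualSp F 7 | (θ : (Fin 7 → F) →ₗ[F] F) x ≠ 0} = (LinearMap.ker e : Set (DualSp F 7))ᶜ := rfl
    rw [hset, Set.ncard_compl, ← Nat.card_coe_set_eq, SetLike.coe_sort_coe, hk, ht]
  obtain ⟨j, hj⟩ := hdvdS
  rw [hj, cardL1, mul_left_comm] at cardL2
  have hS0 : 0 < Nat.card (pairStab X x u) := Nat.card_pos
  have hkey : q ^ 7 - q = (q ^ 7 - q ^ 6) * j :=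
    Nat.eq_of_mul_eq_mul_left hS0 (by linarith)
  have h6 : q ^ 6 ∣ q ^ 7 - q := hkey ▸ Dvd.dvd.mul_right (Nat.dvd_sub (pow_dvd_pow q (by norm_num)) dvd_rfl) j
  have h7 : q ^ 6 ∣ q := by
    have := Nat.dvd_sub (pow_dvd_pow q (show 6 ≤ 7 by norm_num)) h6
    rwa [Nat.sub_sub_self (Nat.le_self_pow (by norm_num) q)] at this
  have h8 := Nat.le_of_dvd (by omega) h7
  have h9 : q < q ^ 6 := lt_self_pow₀ hq1 (by norm_num)
  omega

/-- In dimension seven, an element fixing both lines and scalar modulo the line is scalar. -/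
theorem scalar_of_fix {X : Subgroup (GL (Fin 7) F)} {x u : Fin 7 → F} (hX : NoCen X) (hP : PairTrans X)
    (hxu : LinearIndependent F ![x, u]) {g : GL (Fin 7) F} (hg : g ∈ pairStab X x u) {l : F}
    (hl : l ≠ 0) (hL : ∀ v, lin g v - l • v ∈ Submodule.span F {x, u}) : ∀ v, lin g v = l • v := by
  obtain ⟨hgX, ⟨α, hα, ea⟩, β, hβ, eb⟩ := hg
  have h1 : α = l := eq_of_fix hX hP hxu hgX hα hβ ea eb hL
  have h2 : β = l := eq_of_fix hX hP (LinearIndependent.pair_symm_iff.1 hxu) hgX hβ hα eb ea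
    (fun v => by rw [Set.pair_comm]; exact hL v)
  exact scalar_of_eq hX hxu hgX hl (h1 ▸ ea) (h2 ▸ eb) hL

end Cfsg.Agent.MaxSub.SingerSeven
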