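import Mathlib

/-!
Arithmetic of the order of the stabiliser of a line in a pair-transitive subgroup of `GL₇(q)`.
-/

set_option autoImplicit false
set_option linter.style.haveILetI false

namespace Cfsg.Agent.MaxSub.SingerSeven

theorem cast_eq_of_dvd {q r : ℕ} (hq : 2 ≤ q) (h : r ∣ q - 1 ∨ r ∣ q + 1) :
    (q : ZMod r) = 1 ∨ (q : ZMod r) = -1 := by
  rcases h with h | h
  · left
    rw [← ZMod.natCast_eq_zero_iff, Nat.cast_sub (by omega), Nat.cast_one, sub_eq_zero] at h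
    exact h
  · right
    rw [← ZMod.natCast_eq_zero_iff, Nat.cast_add, Nat.cast_one] at h
    exact eq_neg_of_add_eq_zero_left h

/-- A number all of whose prime divisors equal `l`, not divisible by `l²`, divides `l`. -/
theorem dvd_prime_of {d l : ℕ} (hd : d ≠ 0) (h : ∀ r : ℕ, r.Prime → r ∣ d → r = l) (h2 : ¬ l ^ 2 ∣ d) :
    d ∣ l := by
  have e := Nat.eq_prime_pow_of_unique_prime_dvd hd (p := l) (fun {r} hr hrd => h r hr hrd)
  rcases e' : d.primeFactorsList.length with _ | _ | n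
  · rw [e, e', pow_zero]; exact one_dvd _
  · rw [e, e', pow_one]
  · exact absurd (by rw [e, e']; exact pow_dvd_pow l (by omega)) h2

variable {q u : ℕ}

theorem gcd_phi4 (hq : 2 ≤ q) (h : ∀ r : ℕ, r.Prime → r ∣ u → r ∣ q ^ 2 + 1 → r ∣ q - 1 ∨ r ∣ q + 1) :
    Nat.gcd u (q ^ 2 + 1) ∣ 2 := by
  refine dvd_prime_of (Nat.gcd_pos_of_pos_right _ (by positivity)).ne' (fun r hr hd => ?_) fun hd => ?_
  · have hA : r ∣ q ^ 2 + 1 := hd.trans (Nat.gcd_dvd_right _ _)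
    have h0 : ((q ^ 2 + 1 : ℕ) : ZMod r) = 0 := (ZMod.natCast_eq_zero_iff _ _).2 hA
    push_cast at h0
    have h2 : ((2 : ℕ) : ZMod r) = 0 := by
      rcases cast_eq_of_dvd hq (h r hr (hd.trans (Nat.gcd_dvd_left _ _)) hA) with e | e <;>
        rw [e] at h0 <;> push_cast <;> linear_combination h0
    exact (Nat.prime_dvd_prime_iff_eq hr Nat.prime_two).1 ((ZMod.natCast_eq_zero_iff _ _).1 h2)
  · have h0 := (ZMod.natCast_eq_zero_iff _ _).2 (hd.trans (Nat.gcd_dvd_right _ _))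
    push_cast at h0
    exact (by decide : ∀ x : ZMod (2 ^ 2), x ^ 2 + 1 ≠ 0) _ h0

theorem gcd_phi3 (hq : 2 ≤ q) (h : ∀ r : ℕ, r.Prime → r ∣ u → r ∣ q ^ 2 + q + 1 → r ∣ q - 1 ∨ r ∣ q + 1) :
    Nat.gcd u (q ^ 2 + q + 1) ∣ 3 := by
  refine dvd_prime_of (Nat.gcd_pos_of_pos_right _ (by positivity)).ne' (fun r hr hd => ?_) fun hd => ?_
  · haveI := Fact.mk hr
    have hA : r ∣ q ^ 2 + q + 1 := hd.trans (Nat.gcd_dvd_right _ _)
    have h0 : ((q ^ 2 + q + 1 : ℕ) : ZMod r) = 0 := (ZMod.natCast_eq_zero_iff _ _).2 hA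
    push_cast at h0
    rcases cast_eq_of_dvd hq (h r hr (hd.trans (Nat.gcd_dvd_left _ _)) hA) with e | e
    · refine (Nat.prime_dvd_prime_iff_eq hr Nat.prime_three).1 ((ZMod.natCast_eq_zero_iff _ _).1 ?_)
      rw [e] at h0; push_cast; linear_combination h0
    · exact absurd (by rw [e] at h0; linear_combination h0) (one_ne_zero (α := ZMod r))
  · have h0 := (ZMod.natCast_eq_zero_iff _ _).2 (hd.trans (Nat.gcd_dvd_right _ _))
    push_cast at h0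
    exact (by decide : ∀ x : ZMod (3 ^ 2), x ^ 2 + x + 1 ≠ 0) _ h0

theorem gcd_phi5 (hq : 2 ≤ q)
    (h : ∀ r : ℕ, r.Prime → r ∣ u → r ∣ q ^ 4 + q ^ 3 + q ^ 2 + q + 1 → r ∣ q - 1 ∨ r ∣ q + 1) :
    Nat.gcd u (q ^ 4 + q ^ 3 + q ^ 2 + q + 1) ∣ 5 := by
  refine dvd_prime_of (Nat.gcd_pos_of_pos_right _ (by positivity)).ne' (fun r hr hd => ?_) fun hd => ?_
  · haveI := Fact.mk hr
    have hA : r ∣ q ^ 4 + q ^ 3 + q ^ 2 + q + 1 := hd.trans (Nat.gcd_dvd_right _ _)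
    have h0 : ((q ^ 4 + q ^ 3 + q ^ 2 + q + 1 : ℕ) : ZMod r) = 0 := (ZMod.natCast_eq_zero_iff _ _).2 hA
    push_cast at h0
    rcases cast_eq_of_dvd hq (h r hr (hd.trans (Nat.gcd_dvd_left _ _)) hA) with e | e
    · refine (Nat.prime_dvd_prime_iff_eq hr (by norm_num)).1 ((ZMod.natCast_eq_zero_iff _ _).1 ?_)
      rw [e] at h0; push_cast; linear_combination h0
    · exact absurd (by rw [e] at h0; linear_combination h0) (one_ne_zero (α := ZMod r))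
  · have h0 := (ZMod.natCast_eq_zero_iff _ _).2 (hd.trans (Nat.gcd_dvd_right _ _))
    push_cast at h0
    exact (by decide +kernel : ∀ x : ZMod (5 ^ 2), x ^ 4 + x ^ 3 + x ^ 2 + x + 1 ≠ 0) _ h0

theorem dvd_gcd_prod {A B C D : ℕ} (h : u ∣ A * B * C * D) :
    u ∣ A * Nat.gcd u B * Nat.gcd u C * Nat.gcd u D := by
  calc u = Nat.gcd u (A * B * C * D) := (Nat.gcd_eq_left h).symm
    _ ∣ Nat.gcd u (A * B * C) * Nat.gcd u D := gcd_mul_dvd_mul_gcd _ _ _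
    _ ∣ Nat.gcd u (A * B) * Nat.gcd u C * Nat.gcd u D :=
        Nat.mul_dvd_mul_right (gcd_mul_dvd_mul_gcd _ _ _) _
    _ ∣ A * Nat.gcd u B * Nat.gcd u C * Nat.gcd u D :=
        Nat.mul_dvd_mul_right (Nat.mul_dvd_mul_right ((gcd_mul_dvd_mul_gcd _ _ _).trans
          (Nat.mul_dvd_mul_right (Nat.gcd_dvd_right _ _) _)) _) _

theorem dvd_bound_gen (hq : 2 ≤ q)
    (hu : u ∣ (q-1)^4*(q+1)^2*(q^2+1)*(q^2+q+1)*(q^4+q^3+q^2+q+1))
    (h : ∀ r : ℕ, r.Prime → r ∣ u → r ∣ q-1 ∨ r ∣ q+1) : u ∣ 30*(q-1)^4*(q+1)^2 := by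
  have h' := dvd_gcd_prod hu
  refine h'.trans ((Nat.mul_dvd_mul (Nat.mul_dvd_mul (Nat.mul_dvd_mul dvd_rfl
    (gcd_phi4 hq fun r hr hru _ => h r hr hru)) (gcd_phi3 hq fun r hr hru _ => h r hr hru))
    (gcd_phi5 hq fun r hr hru _ => h r hr hru)).trans (dvd_of_eq ?_))
  ring

theorem dvd_bound_five (hq : 2 ≤ q)
    (hu : u ∣ (q-1)^4*(q+1)^2*(q^2+1)*(q^2+q+1)*(q^4+q^3+q^2+q+1))
    (h : ∀ r : ℕ, r.Prime → r ∣ u → r ∣ q^4+q^3+q^2+q+1 → r ∣ q-1 ∨ r ∣ q+1) :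
    u ∣ 5*(q-1)^4*(q+1)^2*(q^2+1)*(q^2+q+1) := by
  have h' := dvd_gcd_prod hu
  refine h'.trans ((Nat.mul_dvd_mul (Nat.mul_dvd_mul (Nat.mul_dvd_mul dvd_rfl
    (Nat.gcd_dvd_right _ _)) (Nat.gcd_dvd_right _ _)) (gcd_phi5 hq h)).trans (dvd_of_eq ?_))
  ring

theorem dvd_T {p f q a u g S : ℕ} (hp : p.Prime) (hq : q = p^f) (hu : ¬ p ∣ u) (hS : S = g*(p^a*u))
    (hg : 0 < g) (h : S*(q-1) ∣ g*∏ i : Fin 5, (q^5 - q^(i:ℕ))) :
    u ∣ (q-1)^4*(q+1)^2*(q^2+1)*(q^2+q+1)*(q^4+q^3+q^2+q+1) := by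
  rcases f with _ | f
  · simp [hq]
  have hq1 : 1 < q := hq ▸ Nat.one_lt_pow (by omega) hp.one_lt
  subst hS
  rw [mul_assoc, Nat.mul_dvd_mul_iff_left hg] at h
  have e : ∀ i ≤ 5, q ^ 5 - q ^ i = q ^ i * (q ^ (5 - i) - 1) := fun i hi => by
    rw [Nat.mul_sub, mul_one, ← pow_add, Nat.add_sub_cancel' hi]
  have hprod : (∏ i : Fin 5, (q^5 - q^(i:ℕ))) =
      q ^ 10 * ((q^5 - 1) * (q^4 - 1) * (q^3 - 1) * (q^2 - 1)) * (q - 1) := by
    simp only [Fin.prod_univ_five, Fin.val_zero, Fin.val_one, Fin.val_two]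
    rw [show ((3 : Fin 5) : ℕ) = 3 from rfl, show ((4 : Fin 5) : ℕ) = 4 from rfl,
      e 0 (by omega), e 1 (by omega), e 2 (by omega), e 3 (by omega), e 4 (by omega)]
    norm_num
    ring
  have h1 : u * (q - 1) ∣ (∏ i : Fin 5, (q^5 - q^(i:ℕ))) :=
    (Nat.mul_dvd_mul_right (Dvd.intro_left _ rfl) _).trans h
  rw [hprod, Nat.mul_dvd_mul_iff_right (by omega)] at h1
  have hcop : Nat.Coprime u (q ^ 10) := by
    rw [hq, ← pow_mul]
    exact ((hp.coprime_iff_not_dvd.2 hu).symm).pow_right _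
  have h2 := hcop.dvd_of_dvd_mul_left h1
  have e5 : q^5 - 1 = (q-1) * (q^4+q^3+q^2+q+1) := by
    obtain ⟨k, rfl⟩ : ∃ k, q = k + 1 := ⟨q - 1, by omega⟩
    simp only [Nat.add_sub_cancel]
    refine Nat.sub_eq_of_eq_add ?_
    ring
  have e4 : q^4 - 1 = (q-1) * ((q+1)*(q^2+1)) := by
    obtain ⟨k, rfl⟩ : ∃ k, q = k + 1 := ⟨q - 1, by omega⟩
    simp only [Nat.add_sub_cancel]
    refine Nat.sub_eq_of_eq_add ?_
    ring
  have e3 : q^3 - 1 = (q-1) * (q^2+q+1) := by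
    obtain ⟨k, rfl⟩ : ∃ k, q = k + 1 := ⟨q - 1, by omega⟩
    simp only [Nat.add_sub_cancel]
    refine Nat.sub_eq_of_eq_add ?_
    ring
  have e2 : q^2 - 1 = (q-1) * (q+1) := by
    obtain ⟨k, rfl⟩ : ∃ k, q = k + 1 := ⟨q - 1, by omega⟩
    simp only [Nat.add_sub_cancel]
    refine Nat.sub_eq_of_eq_add ?_
    ring
  rw [e5, e4, e3, e2] at h2
  refine h2.trans (dvd_of_eq ?_)
  ring

theorem exists_first {r : ℕ} (hq : 2 ≤ q) (hr : r.Prime) (h1 : ¬ r ∣ q-1) (h2 : ¬ r ∣ q+1)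
    (h : r ∣ (q^2+1)*(q^2+q+1)*(q^4+q^3+q^2+q+1)) :
    ∃ k, (k = 3 ∨ k = 4 ∨ k = 5) ∧ r ∣ q^k - 1 ∧ (∀ j, 0 < j → j < k → ¬ r ∣ q^j - 1) ∧
      (∀ d, 0 < d → d ≤ 5 → r ∣ q^d - 1 → d = k) := by
  haveI := Fact.mk hr
  have cast : ∀ j, (r ∣ q ^ j - 1) ↔ (q : ZMod r) ^ j = 1 := fun j => by
    rw [← ZMod.natCast_eq_zero_iff, Nat.cast_sub (Nat.one_le_pow _ _ (by omega)), sub_eq_zero,
      Nat.cast_pow, Nat.cast_one]
  have hx1 : (q : ZMod r) ≠ 1 := fun e => h1 (by simpa using (cast 1).2 (by rw [pow_one, e]))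
  have hx2 : (q : ZMod r) ≠ -1 := fun e => h2 (by
    rw [← ZMod.natCast_eq_zero_iff]; push_cast; rw [e]; ring)
  have hsq : (q : ZMod r) ^ 2 ≠ 1 := fun e => (sq_eq_one_iff.1 e).elim hx1 hx2
  have key : ∀ k, (q : ZMod r) ^ k = 1 → (k = 3 ∨ k = 4 ∨ k = 5) →
      ∀ d, 0 < d → d ≤ 5 → (q : ZMod r) ^ d = 1 → d = k := by
    intro k hk hk' d hd hd5 hxd
    have hg : (q : ZMod r) ^ Nat.gcd d k = 1 := pow_gcd_eq_one.2 ⟨hxd, hk⟩
    interval_cases d <;> rcases hk' with rfl | rfl | rfl <;> norm_num at hg <;>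
      first | rfl | exact absurd hg hx1 | exact absurd hg hsq | (rcases hg with hg | hg <;> contradiction)
  have main : ∀ k, (k = 3 ∨ k = 4 ∨ k = 5) → (q : ZMod r) ^ k = 1 → _ := fun k hk' hk =>
    (⟨k, hk', (cast k).2 hk,
      fun j hj hjk hd => absurd (key k hk hk' j hj (by omega) ((cast j).1 hd)) (by omega),
      fun d hd hd5 hdd => key k hk hk' d hd hd5 ((cast d).1 hdd)⟩ :
      ∃ k, (k = 3 ∨ k = 4 ∨ k = 5) ∧ r ∣ q^k - 1 ∧ (∀ j, 0 < j → j < k → ¬ r ∣ q^j - 1) ∧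
        (∀ d, 0 < d → d ≤ 5 → r ∣ q^d - 1 → d = k))
  rw [← ZMod.natCast_eq_zero_iff] at h
  push_cast at h
  rcases mul_eq_zero.1 h with h' | h'
  · rcases mul_eq_zero.1 h' with h'' | h''
    · exact main 4 (by omega) (by linear_combination ((q : ZMod r) ^ 2 - 1) * h'')
    · exact main 3 (by omega) (by linear_combination ((q : ZMod r) - 1) * h'')
  · exact main 5 (by omega) (by linear_combination ((q : ZMod r) - 1) * h')

theorem exists_t (hq : 2 ≤ q) : ∃ t, t.Prime ∧ t ∣ q^2+1 ∧ ¬ t ∣ q - 1 ∧ ¬ t ∣ q+1 ∧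
    ¬ t ∣ ∏ i : Fin 3, (q^3 - q^(i:ℕ)) := by
  obtain ⟨t, ht, htd, ht2⟩ : ∃ t : ℕ, t.Prime ∧ t ∣ q ^ 2 + 1 ∧ t ≠ 2 := by
    by_contra hc
    push Not at hc
    have h2 := dvd_prime_of (d := q ^ 2 + 1) (l := 2) (by positivity) (fun r hr hd => hc r hr hd)
      (fun hd => by
        have h0 := (ZMod.natCast_eq_zero_iff _ _).2 hd
        push_cast at h0
        exact (by decide : ∀ x : ZMod (2 ^ 2), x ^ 2 + 1 ≠ 0) _ h0)
    have := Nat.le_of_dvd two_pos h2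
    nlinarith
  haveI := Fact.mk ht
  have h0 := (ZMod.natCast_eq_zero_iff _ _).2 htd
  push_cast at h0
  have h2ne : (2 : ZMod t) ≠ 0 := fun h => ht2 ((Nat.prime_dvd_prime_iff_eq ht Nat.prime_two).1
    ((ZMod.natCast_eq_zero_iff _ _).1 (by exact_mod_cast h)))
  have hpm : ¬ (t ∣ q - 1 ∨ t ∣ q + 1) := fun h => by
    rcases cast_eq_of_dvd hq h with e | e <;> rw [e] at h0 <;> exact h2ne (by linear_combination h0)
  refine ⟨t, ht, htd, fun h => hpm (Or.inl h), fun h => hpm (Or.inr h), fun h => ?_⟩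
  rw [← ZMod.natCast_eq_zero_iff] at h
  push_cast [Nat.cast_prod] at h
  obtain ⟨i, -, hi⟩ := Finset.prod_eq_zero_iff.1 h
  rw [Nat.cast_sub (Nat.pow_le_pow_right (by omega) (by omega)), sub_eq_zero] at hi
  push_cast at hi
  have hx0 : (q : ZMod t) ≠ 0 := fun e => by simp [e] at h0
  fin_cases i <;> simp at hi
  · exact h2ne (by linear_combination (1 - ((q : ZMod t) - 1) * (q : ZMod t)) * h0 + ((q : ZMod t) - 1) * hi)
  · have h' : (q : ZMod t) ^ 2 = 1 := mul_left_cancel₀ hx0 (by linear_combination hi)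
    exact h2ne (by linear_combination h0 - h')
  · have h' : (q : ZMod t) = 1 := mul_left_cancel₀ (pow_ne_zero 2 hx0) (by linear_combination hi)
    exact h2ne (by rw [h'] at h0; linear_combination h0)

end Cfsg.Agent.MaxSub.SingerSeven
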