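import Cfsg.Agent.MaxSub.SingerFive.Kernel

/-!
Interface for the Singer clause in dimension seven.
-/

set_option autoImplicit false

namespace Cfsg.Agent.MaxSub.SingerSeven

open Matrix
open scoped MatrixGroups
open SingerFive

variable {F : Type*} [Field F] {n : ℕ}

/-- `X` has no non-identity element of rank at most two of the kind used in `SingerFive`. -/
def NoCen (X : Subgroup (GL (Fin n) F)) : Prop := ∀ g x u, ¬ Cen X g x u

/-- The stabiliser in `X` of the two lines spanned by `x` and `u`. -/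
def pairStab (X : Subgroup (GL (Fin n) F)) (x u : Fin n → F) : Subgroup (GL (Fin n) F) where
  carrier := {g | g ∈ X ∧ (∃ a : F, a ≠ 0 ∧ lin g x = a • x) ∧ ∃ b : F, b ≠ 0 ∧ lin g u = b • u}
  one_mem' := ⟨X.one_mem, ⟨1, one_ne_zero, by simp⟩, ⟨1, one_ne_zero, by simp⟩⟩
  mul_mem' := by
    rintro g h ⟨hg, ⟨a, ha, ea⟩, b, hb, eb⟩ ⟨hh, ⟨a', ha', ea'⟩, b', hb', eb'⟩
    exact ⟨X.mul_mem hg hh,
      ⟨a' * a, mul_ne_zero ha' ha, by rw [lin_mul_apply, ea', map_smul, ea, smul_smul]⟩,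
      b' * b, mul_ne_zero hb' hb, by rw [lin_mul_apply, eb', map_smul, eb, smul_smul]⟩
  inv_mem' := by
    rintro g ⟨hg, ⟨a, ha, ea⟩, b, hb, eb⟩
    refine ⟨X.inv_mem hg, ⟨a⁻¹, inv_ne_zero ha, ?_⟩, b⁻¹, inv_ne_zero hb, ?_⟩
    · conv_rhs => rw [← lin_inv_apply g x, ea, map_smul, inv_smul_smul₀ ha]
    · conv_rhs => rw [← lin_inv_apply g u, eb, map_smul, inv_smul_smul₀ hb]

lemma mem_pairStab {X : Subgroup (GL (Fin n) F)} {x u : Fin n → F} {g : GL (Fin n) F} :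
    g ∈ pairStab X x u ↔ g ∈ X ∧ (∃ a : F, a ≠ 0 ∧ lin g x = a • x) ∧
      ∃ b : F, b ≠ 0 ∧ lin g u = b • u := Iff.rfl

end Cfsg.Agent.MaxSub.SingerSeven
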