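import Mathlib
import Cfsg.Agent.MaxSub.SingerTwoTrans.Arith

/-!
# The degree arithmetic for two-transitivity of Singer overgroups in dimension seven

For a prime power `q ≡ 1 (mod 7)` and `a < b ≤ 6`, the number `b M + 7 a - 7 b`
(`M = q⁶+…+1`; seven times the degree `a + b (m - 1)` of a putative constituent) does not divide
the order of `SL₇(q)`.
-/

set_option autoImplicit false

namespace Cfsg.Agent.MaxSub.SingerSeven

/-- `q⁶ + … + 1`. -/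
def bM (q : ℕ) : ℕ := q^6+q^5+q^4+q^3+q^2+q+1

/-- The order of `SL₇(q)`, factored. -/
def ordSeven (q : ℕ) : ℕ :=
  q^21*(q-1)^6*(q+1)^3*(q^2+q+1)^2*(q^2+1)*(q^4+q^3+q^2+q+1)*(q^2-q+1)*bM q

/-- The bound on `gcd (D, |SL₇(q)|)` apart from the powers of `q - 1`. -/
def restBound (b j : ℕ) : ℕ :=
  let v := ((b:ℤ) - 7*j).natAbs
  v * v^3 * v^2 * (b^2 + 49*j^2) *
    ((b:ℤ)^4 - b^3*((b:ℤ)-7*j) + b^2*((b:ℤ)-7*j)^2 - b*((b:ℤ)-7*j)^3
      + ((b:ℤ)-7*j)^4).natAbs * v * (7*j)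

theorem gcd_dvd_of_comb {D X : ℕ} {e : ℤ} (x y : ℤ) (h : e = x * D + y * X) :
    Nat.gcd D X ∣ e.natAbs := by
  rw [← Int.natCast_dvd]
  rw [h]
  exact dvd_add
    (dvd_mul_of_dvd_right (Int.natCast_dvd_natCast.mpr (Nat.gcd_dvd_left D X)) x)
    (dvd_mul_of_dvd_right (Int.natCast_dvd_natCast.mpr (Nat.gcd_dvd_right D X)) y)

/-- A divisor of `|SL₇(q)|` congruent as `b M - 7 j`, or a divisor `C` of such a number. -/
theorem dvd_bound {q b j C D t : ℕ} (hq : IsPrimePow q) (hD : (D : ℤ) = b * (bM q : ℤ) - 7 * j)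
    (hvq : ((b:ℤ) - 7*j).natAbs < q) (hv : (b:ℤ) - 7*j ≠ 0) (hC : C ∣ D)
    (ht : Nat.gcd C (q-1) ∣ t) (h : C ∣ ordSeven q) :
    C ∣ t^6 * restBound b j := by
  have hq1 : 1 ≤ q := hq.one_lt.le
  have hM : (bM q : ℤ) = (q:ℤ)^6+(q:ℤ)^5+(q:ℤ)^4+(q:ℤ)^3+(q:ℤ)^2+q+1 := by
    rw [bM]; push_cast; ring
  have hM1 : (bM q : ℤ) - 1 = q*((q:ℤ)^2+q+1)*((q:ℤ)+1)*((q:ℤ)^2-q+1) := by rw [hM]; ring
  have hsub : ((q^2-q+1 : ℕ) : ℤ) = (q:ℤ)^2-q+1 := by
    rw [Nat.cast_add, Nat.cast_sub (Nat.le_self_pow (by norm_num) q)]; push_cast; ring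
  have hC' : ∀ X, Nat.gcd C X ∣ Nat.gcd D X := fun X => Nat.gcd_dvd_gcd_of_dvd_left X hC
  set v := ((b:ℤ) - 7*j).natAbs with hvdef
  have gv : ∀ X : ℕ, (X:ℤ) ∣ (bM q : ℤ) - 1 → Nat.gcd C X ∣ v := by
    intro X hX
    obtain ⟨w, hw⟩ := hX
    exact (hC' X).trans (gcd_dvd_of_comb 1 (-(b:ℤ) * w) (by linear_combination -(b:ℤ) * hw - hD))
  have g1 : Nat.gcd C q ∣ v :=
    gv q ⟨((q:ℤ)^2+q+1)*((q:ℤ)+1)*((q:ℤ)^2-q+1), by rw [hM1]; ring⟩
  have g3 : Nat.gcd C (q+1) ∣ v :=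
    gv (q+1) ⟨q*((q:ℤ)^2+q+1)*((q:ℤ)^2-q+1), by rw [hM1]; push_cast; ring⟩
  have g4 : Nat.gcd C (q^2+q+1) ∣ v :=
    gv (q^2+q+1) ⟨q*((q:ℤ)+1)*((q:ℤ)^2-q+1), by rw [hM1]; push_cast; ring⟩
  have g7 : Nat.gcd C (q^2-q+1) ∣ v :=
    gv _ ⟨q*((q:ℤ)^2+q+1)*((q:ℤ)+1), by rw [hM1, hsub]; ring⟩
  have g5 : Nat.gcd C (q^2+1) ∣ b^2+49*j^2 := by
    refine (hC' _).trans ((gcd_dvd_of_comb (e := ((b^2+49*j^2 : ℕ) : ℤ))
      (-((b:ℤ)*q+7*j))
      (((b:ℤ)*q+7*j)*b*((q:ℤ)^4+(q:ℤ)^3+1) + (b:ℤ)^2) ?_).trans (by rw [Int.natAbs_natCast]))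
    push_cast
    linear_combination ((b:ℤ)*q+7*j) * hD + (b:ℤ)*((b:ℤ)*q+7*j) * hM
  set w := (b:ℤ)*q
  set u := -((b:ℤ) - 7*j) with hu
  set G := (b:ℤ)^3 + (b:ℤ)^2*(u+w) + b*(u^2+u*w+w^2) + (u^3+u^2*w+u*w^2+w^3) with hG
  set R := ((b:ℤ)^4 - (b:ℤ)^3*((b:ℤ)-7*j) + (b:ℤ)^2*((b:ℤ)-7*j)^2 - b*((b:ℤ)-7*j)^3
      + ((b:ℤ)-7*j)^4) with hR
  have g6 : Nat.gcd C (q^4+q^3+q^2+q+1) ∣ R.natAbs := by
    refine (hC' _).trans (gcd_dvd_of_comb (-G) ((b:ℤ)^4 + G*b*(q:ℤ)^2) ?_)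
    push_cast
    rw [hR, hG, hu]
    linear_combination G * hD + G * (b:ℤ) * hM
  have g8 : Nat.gcd C (bM q) ∣ 7*j := by
    refine (hC' _).trans ((gcd_dvd_of_comb (e := ((7*j : ℕ) : ℤ)) (-1) b ?_).trans
      (by rw [Int.natAbs_natCast]))
    push_cast
    linear_combination hD
  have hv0 : 0 < v := Int.natAbs_pos.mpr hv
  have := (Nat.dvd_gcd dvd_rfl h).trans (SingerTwoTrans.gcd_mul_dvd_bound
    (SingerTwoTrans.gcd_mul_dvd_bound (SingerTwoTrans.gcd_mul_dvd_bound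
    (SingerTwoTrans.gcd_mul_dvd_bound (SingerTwoTrans.gcd_mul_dvd_bound
    (SingerTwoTrans.gcd_mul_dvd_bound (SingerTwoTrans.gcd_mul_dvd_bound
      (SingerTwoTrans.gcd_primePow_pow hq hv0 hvq g1 21) (SingerTwoTrans.gcd_pow_dvd_bound ht 6))
      (SingerTwoTrans.gcd_pow_dvd_bound g3 3)) (SingerTwoTrans.gcd_pow_dvd_bound g4 2)) g5) g6)
      g7) g8)
  refine this.trans (dvd_of_eq ?_)
  simp only [restBound, hR, ← hvdef]
  ring

/-- Small values of `q`. -/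
theorem small_cases : ∀ n < 7, ∀ b < 7, ∀ a < b, 1 ≤ n →
    ¬ (b * bM (7*n+1) + 7*a - 7*b ∣ ordSeven (7*n+1)) := by
  decide +kernel

/-- The test for `a ≠ 0`. -/
def posTest (n b a : ℕ) : Bool :=
  decide (((7*a)^6 * restBound b (b-a)) % (b * bM (7*n+1) + 7*a - 7*b) ≠ 0)

/-- The test for `a = 0`. -/
def zeroTest (n : ℕ) : Bool :=
  decide ((21^6 * restBound 1 1) % ((bM (7*n+1) - 7) / (7*n)) ≠ 0)

theorem pos_cases : ∀ b < 7, ∀ a < b, 0 < a →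
    ((List.range 2460).drop 7).all (fun n => posTest n b a) = true := by
  decide +kernel

theorem zero_cases : ((List.range 2460).drop 7).all zeroTest = true := by
  decide +kernel

theorem pos_large : ∀ b < 7, ∀ a < b, 0 < a → (7*a)^6 * restBound b (b-a) < b * 17220^6 := by
  decide +kernel

theorem zero_large : 21^6 * restBound 1 1 < 17220^5 := by
  decide +kernel

/-- No constituent degree `a + b (m - 1)` with `a < b ≤ 6` divides the order. -/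
theorem no_degree {q : ℕ} (hq : IsPrimePow q) (h7 : q % 7 = 1) (a b : ℕ) (hab : a < b)
    (hb : b ≤ 6) : ¬ (b * bM q + 7*a - 7*b ∣ ordSeven q) := by
  obtain ⟨n, rfl⟩ : ∃ n, q = 7*n+1 := ⟨q / 7, by omega⟩
  have hn1 : 1 ≤ n := by have := hq.one_lt; omega
  rcases lt_or_ge n 7 with hn | hn
  · exact small_cases n hn b (by omega) a hab hn1
  intro hd
  have hmem : n < 2460 → n ∈ (List.range 2460).drop 7 := fun h => by
    rw [List.mem_iff_getElem]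
    exact ⟨n - 7, by simp; omega, by simp; omega⟩
  have hMq : (7*n+1)^6 + 50 ≤ bM (7*n+1) := by
    rw [bM]
    have := Nat.pow_le_pow_left (show 50 ≤ 7*n+1 by omega) 2
    omega
  have h7M : 7 * b ≤ b * bM (7*n+1) := by
    rw [mul_comm 7]; exact Nat.mul_le_mul_left b (by omega)
  set D := b * bM (7*n+1) + 7*a - 7*b with hDdef
  rcases Nat.eq_zero_or_pos a with ha | ha
  · subst ha
    set Q := (7*n+1)^5 + 2*(7*n+1)^4 + 3*(7*n+1)^3 + 4*(7*n+1)^2 + 5*(7*n+1) + 6 with hQ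
    have hQM : 7*n * Q + 7 = bM (7*n+1) := by rw [hQ, bM]; ring
    have hQD : Q ∣ D := ⟨b * (7*n), by
      have e1 : b * bM (7*n+1) = Q * (b * (7*n)) + 7 * b := by rw [← hQM]; ring
      omega⟩
    have ht : Nat.gcd Q (7*n+1-1) ∣ 21 := by
      rw [Nat.add_sub_cancel]
      have hQ21 : Q = 7*n * ((7*n+1)^4+3*(7*n+1)^3+6*(7*n+1)^2+10*(7*n+1)+15) + 21 := by
        rw [hQ]; ring
      rw [hQ21, Nat.gcd_comm, Nat.gcd_mul_left_add_right]
      exact Nat.gcd_dvd_right _ _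
    have hB := dvd_bound (b := 1) (j := 1) (D := bM (7*n+1) - 7) hq
      (by rw [Nat.cast_sub (by omega)]; push_cast; ring)
      (by norm_num; omega) (by norm_num)
      ⟨7*n, by rw [← hQM, Nat.add_sub_cancel, mul_comm]⟩ ht (hQD.trans hd)
    rcases lt_or_ge n 2460 with h | h
    · have h2 := List.all_eq_true.mp zero_cases n (hmem h)
      rw [zeroTest, decide_eq_true_iff] at h2
      apply h2
      rw [show bM (7*n+1) - 7 = 7*n * Q by omega, Nat.mul_div_cancel_left _ (by omega)]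
      exact Nat.mod_eq_zero_of_dvd hB
    · have h2 := Nat.le_of_dvd (by decide +kernel) hB
      have h3 := zero_large
      have h4 : 17220^5 ≤ Q :=
        (Nat.pow_le_pow_left (show 17220 ≤ 7*n+1 by omega) 5).trans (by rw [hQ]; omega)
      omega
  · obtain ⟨j, hj⟩ := Nat.exists_eq_add_of_le hab.le
    have hjb : b - a = j := by omega
    have hDZ : (D : ℤ) = b * (bM (7*n+1) : ℤ) - 7 * j := by
      rw [hDdef, Nat.cast_sub (by omega), hj]; push_cast; ring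
    have ht : Nat.gcd D (7*n+1-1) ∣ 7*a := by
      rw [Nat.add_sub_cancel]
      have hbM : bM (7*n+1) = 7*n*((7*n+1)^5 + 2*(7*n+1)^4 + 3*(7*n+1)^3 + 4*(7*n+1)^2
          + 5*(7*n+1) + 6) + 7 := by rw [bM]; ring
      have e1 : D = 7*n*(b*((7*n+1)^5 + 2*(7*n+1)^4 + 3*(7*n+1)^3 + 4*(7*n+1)^2
          + 5*(7*n+1) + 6)) + 7*a := by
        rw [hDdef, hbM]
        apply Nat.sub_eq_of_eq_add
        ring
      rw [e1, Nat.gcd_comm, Nat.gcd_mul_left_add_right]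
      exact Nat.gcd_dvd_right _ _
    have hB := dvd_bound hq hDZ (by omega) (by omega) dvd_rfl ht hd
    rw [← hjb] at hB
    rcases lt_or_ge n 2460 with h | h
    · have h2 := List.all_eq_true.mp (pos_cases b (by omega) a hab ha) n (hmem h)
      rw [posTest, decide_eq_true_iff] at h2
      exact h2 (Nat.mod_eq_zero_of_dvd hB)
    · have h3 := pos_large b (by omega) a hab ha
      have h4 : b * 17220^6 + 7 * b ≤ b * bM (7*n+1) := by
        rw [mul_comm 7, ← mul_add]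
        refine Nat.mul_le_mul_left b ?_
        have := Nat.pow_le_pow_left (show 17220 ≤ 7*n+1 by omega) 6
        omega
      rcases Nat.eq_zero_or_pos ((7*a)^6 * restBound b (b-a)) with h5 | h5
      · have : ∀ b < 7, ∀ a < b, 0 < a → (7*a)^6 * restBound b (b-a) ≠ 0 := by decide +kernel
        exact this b (by omega) a hab ha h5
      · have h2 := Nat.le_of_dvd h5 hB
        omega

end Cfsg.Agent.MaxSub.SingerSeven
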