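import Mathlib

/-!
A `p`-group normalising an `r`-group without fixed vectors in dimension `k`, where `k` is the order
of `q` modulo `r`, has order dividing `k` as soon as it acts faithfully.
-/

set_option autoImplicit false
set_option linter.unusedSectionVars false

namespace Cfsg.Agent.MaxSub.SingerSeven

open Module

variable {F U : Type*} [Field F] [Fintype F] [AddCommGroup U] [Module F U] [FiniteDimensional F U]

/-- The number of vectors of an invariant subspace without fixed vectors. -/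
theorem dvd_card_pow_sub_one {r : ℕ} [Fact r.Prime] {S : Subgroup (U ≃ₗ[F] U)} (hS : IsPGroup r S)
    (W : Submodule F U) (hW : ∀ s ∈ S, ∀ v ∈ W, s v ∈ W)
    (hfree : ∀ v ∈ W, (∀ s ∈ S, s v = v) → v = 0) :
    r ∣ Fintype.card F ^ finrank F W - 1 := by
  classical
  haveI : Finite U := Module.finite_of_finite F
  letI : MulAction S W :=
    { smul := fun s w => ⟨(s : U ≃ₗ[F] U) w, hW s s.2 w w.2⟩
      one_smul := fun w => Subtype.ext rfl
      mul_smul := fun s t w => Subtype.ext rfl }
  have h0 : MulAction.fixedPoints S W = {0} := by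
    ext w
    refine ⟨fun h => Subtype.ext (hfree w w.2 fun s hs => congrArg Subtype.val (h ⟨s, hs⟩)),
      fun h => ?_⟩
    rw [Set.mem_singleton_iff.1 h]
    exact fun s => Subtype.ext (map_zero (s : U ≃ₗ[F] U))
  have h := hS.card_modEq_card_fixedPoints W
  rw [h0, Module.natCard_eq_pow_finrank (K := F), Nat.card_eq_fintype_card] at h
  have h1 : Nat.card ({0} : Set W) = 1 := by simp
  rw [h1] at h
  exact (Nat.modEq_iff_dvd' (Nat.one_le_pow _ _ Fintype.card_pos)).1 h.symm

/-- Endomorphisms commuting with an irreducible one are polynomials in it. -/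
theorem exists_aeval_of_commute {z T : Module.End F U}
    (hirr : ∀ W : Submodule F U, (∀ v ∈ W, z v ∈ W) → W = ⊥ ∨ W = ⊤) {v₀ : U} (hv₀ : v₀ ≠ 0)
    (hT : T * z = z * T) : ∃ f : Polynomial F, T = Polynomial.aeval z f := by
  let L : Polynomial F →ₗ[F] U := (LinearMap.applyₗ v₀).comp (Polynomial.aeval z).toLinearMap
  have hL : LinearMap.range L = ⊤ := by
    refine (hirr _ ?_).resolve_left ?_
    · rintro v ⟨f, rfl⟩
      exact ⟨Polynomial.X * f, by simp [L]⟩
    · intro h
      have : L 1 ∈ LinearMap.range L := ⟨1, rfl⟩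
      rw [h, Submodule.mem_bot] at this
      exact hv₀ (by simpa [L] using this)
  obtain ⟨f, hf⟩ := (LinearMap.range_eq_top.1 hL) (T v₀)
  refine ⟨f, ?_⟩
  have hc : (T - Polynomial.aeval z f) * z = z * (T - Polynomial.aeval z f) := by
    have h2 : Polynomial.aeval z f * z = z * Polynomial.aeval z f := by
      have := (Polynomial.commute_X f).map (Polynomial.aeval z)
      simp only [Polynomial.aeval_X] at this
      exact this.eq.symm
    rw [sub_mul, mul_sub, hT, h2]
  have hk : LinearMap.ker (T - Polynomial.aeval z f) = ⊤ := by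
    refine (hirr _ fun v hv => ?_).resolve_left fun h => ?_
    · rw [LinearMap.mem_ker] at hv ⊢
      have := DFunLike.congr_fun hc v
      simp only [Module.End.mul_apply, hv, map_zero] at this
      exact this
    · have : v₀ ∈ LinearMap.ker (T - Polynomial.aeval z f) := by
        rw [LinearMap.mem_ker, LinearMap.sub_apply, sub_eq_zero]
        simpa [L] using hf.symm
      rw [h, Submodule.mem_bot] at this
      exact hv₀ this
  exact sub_eq_zero.1 (LinearMap.ker_eq_top.1 hk)

/-- Endomorphisms commuting with an irreducible one commute. -/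
theorem commute_of_commute {z T T' : Module.End F U}
    (hirr : ∀ W : Submodule F U, (∀ v ∈ W, z v ∈ W) → W = ⊥ ∨ W = ⊤) {v₀ : U} (hv₀ : v₀ ≠ 0)
    (hT : T * z = z * T) (hT' : T' * z = z * T') : T * T' = T' * T := by
  obtain ⟨f, rfl⟩ := exists_aeval_of_commute hirr hv₀ hT
  obtain ⟨g, rfl⟩ := exists_aeval_of_commute hirr hv₀ hT'
  rw [← map_mul, ← map_mul, mul_comm]

theorem card_dvd_of_fixedFree {p r k : ℕ} [Fact p.Prime] [CharP F p] [Fact r.Prime]
    {G : Type*} [Group G] [Finite G] (ρ : G →* (U ≃ₗ[F] U)) (R P : Subgroup G)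
    (hR : IsPGroup r R) (hP : IsPGroup p P) (hPR : P ≤ Subgroup.normalizer (R : Set G))
    (hk : Module.finrank F U = k) (hk0 : 0 < k)
    (hord : ∀ j, 0 < j → j < k → ¬ r ∣ Fintype.card F ^ j - 1)
    (hfree : ∀ v : U, (∀ h ∈ R, ρ h v = v) → v = 0) (hker : ∀ g ∈ P, ρ g = 1 → g = 1) :
    Nat.card P ∣ k := by
  classical
  haveI : Finite U := Module.finite_of_finite F
  haveI : Finite (Module.End F U) := Module.finite_of_finite F
  haveI hnt : Nontrivial U := Module.nontrivial_of_finrank_pos (R := F) (hk ▸ hk0)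
  obtain ⟨v₀, hv₀⟩ := exists_ne (0 : U)
  haveI hfinS : Finite (R.map ρ) := Finite.of_surjective
    (fun h : R => (⟨ρ h, Subgroup.mem_map_of_mem ρ h.2⟩ : R.map ρ))
    fun s => by
      obtain ⟨h, hh, e⟩ := s.2
      exact ⟨⟨h, hh⟩, Subtype.ext e⟩
  have hS : IsPGroup r (R.map ρ) := hR.map ρ
  haveI : Nontrivial (R.map ρ) := by
    rw [Subgroup.nontrivial_iff_ne_bot]
    intro h
    refine hv₀ (hfree v₀ fun g hg => ?_)
    have : ρ g ∈ R.map ρ := Subgroup.mem_map_of_mem ρ hg
    rw [h, Subgroup.mem_bot] at this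
    rw [this]; rfl
  -- central elements are irreducible
  have hirr : ∀ z ∈ R.map ρ, z ≠ 1 → (∀ s ∈ R.map ρ, s * z = z * s) →
      ∀ W : Submodule F U, (∀ v ∈ W, z v ∈ W) → W = ⊥ ∨ W = ⊤ := by
    intro z hz hz1 hzc
    let C : Submodule F U := LinearMap.ker ((z : U →ₗ[F] U) - LinearMap.id)
    have hC : ∀ v, v ∈ C ↔ z v = v := fun v => by simp [C, sub_eq_zero]
    have hCbot : ∀ v, z v = v → v = 0 := by
      have hd := dvd_card_pow_sub_one hS C (fun s hs v hv => by
          rw [hC] at hv ⊢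
          have := DFunLike.congr_fun (hzc s hs) v
          change s (z v) = z (s v) at this
          rw [hv] at this
          exact this.symm)
        (fun v _ h => hfree v fun g hg => h _ (Subgroup.mem_map_of_mem ρ hg))
      have hlt : finrank F C < k := by
        refine hk ▸ Submodule.finrank_lt fun h => hz1 (LinearEquiv.ext fun v => ?_)
        have : v ∈ C := h ▸ Submodule.mem_top
        simpa using (hC v).1 this
      have h0 : finrank F C = 0 := by
        by_contra h
        exact hord _ (Nat.pos_of_ne_zero h) hlt hd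
      intro v hv
      have : v ∈ (⊥ : Submodule F U) := Submodule.finrank_eq_zero.1 h0 ▸ (hC v).2 hv
      exact (Submodule.mem_bot F).1 this
    intro W hW
    have hpow : ∀ n : ℕ, ∀ v ∈ W, (z ^ n) v ∈ W := by
      intro n
      induction n with
      | zero => intro v hv; simpa using hv
      | succ n ih => intro v hv; rw [pow_succ]; exact ih _ (hW v hv)
    have hZ : IsPGroup r (Subgroup.zpowers z) :=
      hS.to_le ((Subgroup.zpowers_le).2 hz)
    haveI : Finite (Subgroup.zpowers z) :=
      Finite.of_injective _ (Subgroup.inclusion_injective ((Subgroup.zpowers_le).2 hz))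
    have hof : IsOfFinOrder z := by
      rw [← orderOf_pos_iff]
      rw [show orderOf z = orderOf (⟨z, hz⟩ : R.map ρ) from (Subgroup.orderOf_mk z hz).symm]
      exact orderOf_pos _
    have hd := dvd_card_pow_sub_one hZ W (fun s hs v hv => by
        obtain ⟨n, rfl⟩ := hof.mem_powers_iff_mem_zpowers.2 hs
        exact hpow n v hv)
      (fun v _ h => hCbot v (h z (Subgroup.mem_zpowers z)))
    by_cases h0 : finrank F W = 0
    · exact Or.inl (Submodule.finrank_eq_zero.1 h0)
    · refine Or.inr ?_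
      by_contra hne
      exact hord _ (Nat.pos_of_ne_zero h0) (hk ▸ Submodule.finrank_lt hne) hd
  obtain ⟨z₁, hz₁⟩ := (nontrivial_iff_exists_ne (1 : Subgroup.center (R.map ρ))).1
    hS.center_nontrivial
  set z : U ≃ₗ[F] U := ((z₁ : R.map ρ) : U ≃ₗ[F] U) with hzdef
  have hzS : z ∈ R.map ρ := (z₁ : R.map ρ).2
  have hz1 : z ≠ 1 := fun h => hz₁ (Subtype.ext (Subtype.ext h))
  have hzc : ∀ s ∈ R.map ρ, s * z = z * s := fun s hs =>
    congrArg Subtype.val (Subgroup.mem_center_iff.1 z₁.2 ⟨s, hs⟩)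
  -- endomorphisms
  let ψ : (U ≃ₗ[F] U) →* Module.End F U := LinearEquiv.automorphismGroup.toLinearMapMonoidHom
  have ψinj : Function.Injective ψ := fun a b h =>
    LinearEquiv.ext fun v => DFunLike.congr_fun h v
  have hzirr := hirr z hzS hz1 hzc
  have hzirr' : ∀ W : Submodule F U, (∀ v ∈ W, ψ z v ∈ W) → W = ⊥ ∨ W = ⊤ := hzirr
  let C : Subalgebra F (Module.End F U) := Subalgebra.centralizer F {ψ z}
  have hmemC : ∀ T, T ∈ C ↔ T * ψ z = ψ z * T := fun T => by
    simp only [C, Subalgebra.mem_centralizer_iff, Set.mem_singleton_iff, forall_eq, eq_comm]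
  have hcomm : ∀ a b : C, a * b = b * a := fun a b =>
    Subtype.ext (commute_of_commute hzirr' hv₀ ((hmemC _).1 a.2) ((hmemC _).1 b.2))
  have hzero : ∀ T : C, (T : Module.End F U) v₀ = 0 → T = 0 := fun T hT => by
    apply Subtype.ext
    have hk' : LinearMap.ker (T : Module.End F U) = ⊤ := by
      refine (hzirr _ fun v hv => ?_).resolve_left fun h => ?_
      · rw [LinearMap.mem_ker] at hv ⊢
        have := DFunLike.congr_fun ((hmemC _).1 T.2) v
        simp only [Module.End.mul_apply, hv, map_zero] at this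
        exact this
      · have : v₀ ∈ LinearMap.ker (T : Module.End F U) := hT
        rw [h, Submodule.mem_bot] at this
        exact hv₀ this
    exact LinearMap.ker_eq_top.1 hk'
  let ev : C →ₗ[F] U := (LinearMap.applyₗ v₀).comp C.val.toLinearMap
  have hev : Function.Injective ev := by
    rw [← LinearMap.ker_eq_bot, LinearMap.ker_eq_bot']
    exact fun T hT => hzero T hT
  have hsurj : Function.Surjective ev := by
    rw [← LinearMap.range_eq_top]
    refine (hzirr _ ?_).resolve_left fun h => ?_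
    · rintro v ⟨T, rfl⟩
      exact ⟨⟨ψ z, (hmemC _).2 rfl⟩ * T, rfl⟩
    · have : v₀ ∈ LinearMap.range ev := ⟨1, rfl⟩
      rw [h, Submodule.mem_bot] at this
      exact hv₀ this
  have hdim : finrank F C = k := hk ▸ (LinearEquiv.ofBijective ev ⟨hev, hsurj⟩).finrank_eq
  have hnzd : ∀ a b : C, a * b = 0 → a = 0 ∨ b = 0 := fun a b hab => by
    by_cases hb : b = 0
    · exact Or.inr hb
    refine Or.inl (Subtype.ext ?_)
    have hk' : LinearMap.ker (a : Module.End F U) = ⊤ := by
      refine (hzirr _ fun v hv => ?_).resolve_left fun h => ?_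
      · rw [LinearMap.mem_ker] at hv ⊢
        have := DFunLike.congr_fun ((hmemC _).1 a.2) v
        simp only [Module.End.mul_apply, hv, map_zero] at this
        exact this
      · refine hb (hzero b ?_)
        have : (b : Module.End F U) v₀ ∈ LinearMap.ker (a : Module.End F U) := by
          rw [LinearMap.mem_ker]
          exact DFunLike.congr_fun (congrArg Subtype.val hab) v₀
        rw [h, Submodule.mem_bot] at this
        exact this
    exact LinearMap.ker_eq_top.1 hk'
  -- the conjugation action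
  have hconj : ∀ g ∈ P, ∀ T : Module.End F U, T ∈ C →
      ψ (ρ g) * T * ψ (ρ g⁻¹) ∈ C := by
    intro g hg T hT
    have hn : ∀ h ∈ R, g * h * g⁻¹ ∈ R ∧ g⁻¹ * h * g ∈ R := fun h hh =>
      ⟨(Subgroup.mem_normalizer_iff.1 (hPR hg) h).1 hh,
        (Subgroup.mem_normalizer_iff''.1 (hPR hg) h).1 hh⟩
    obtain ⟨h₀, hh₀, eh₀⟩ := hzS
    let z' : U ≃ₗ[F] U := ρ g * z * (ρ g)⁻¹
    have hz'S : z' ∈ R.map ρ := ⟨g * h₀ * g⁻¹, (hn h₀ hh₀).1, by simp [z', ← eh₀]⟩
    have hz'1 : z' ≠ 1 := fun e => hz1 (conj_eq_one_iff.1 e)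
    have hz'c : ∀ s ∈ R.map ρ, s * z' = z' * s := by
      rintro s ⟨h, hh, rfl⟩
      have := hzc (ρ (g⁻¹ * h * g)) (Subgroup.mem_map_of_mem ρ (hn h hh).2)
      simp only [map_mul, map_inv] at this
      calc ρ h * z' = ρ g * ((ρ g)⁻¹ * ρ h * ρ g * z) * (ρ g)⁻¹ := by simp [z', mul_assoc]
        _ = ρ g * (z * ((ρ g)⁻¹ * ρ h * ρ g)) * (ρ g)⁻¹ := by rw [this]
        _ = z' * ρ h := by simp [z', mul_assoc]
    have hT' : ψ (ρ g) * T * ψ (ρ g⁻¹) * ψ z' = ψ z' * (ψ (ρ g) * T * ψ (ρ g⁻¹)) := by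
      have e1 : ψ (ρ g⁻¹) * ψ z' = ψ z * ψ (ρ g⁻¹) := by
        rw [← map_mul, ← map_mul]; simp [z', mul_assoc]
      have e2 : ψ z' * ψ (ρ g) = ψ (ρ g) * ψ z := by
        rw [← map_mul, ← map_mul]; simp [z', mul_assoc]
      calc ψ (ρ g) * T * ψ (ρ g⁻¹) * ψ z' = ψ (ρ g) * (T * ψ z) * ψ (ρ g⁻¹) := by
            rw [mul_assoc _ _ (ψ z'), e1]; simp [mul_assoc]
        _ = ψ (ρ g) * (ψ z * T) * ψ (ρ g⁻¹) := by rw [(hmemC _).1 hT]
        _ = ψ z' * (ψ (ρ g) * T * ψ (ρ g⁻¹)) := by
            rw [← mul_assoc (ψ (ρ g)), ← e2]; simp [mul_assoc]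
    refine (hmemC _).2 ?_
    refine commute_of_commute (hirr z' hz'S hz'1 hz'c) hv₀ hT' ?_
    change ψ z * ψ z' = ψ z' * ψ z
    rw [← map_mul, ← map_mul, hzc z' hz'S]
  letI : CommRing C := { (inferInstance : Ring C) with mul_comm := hcomm }
  haveI : Nontrivial C := ⟨⟨0, 1, fun h => hv₀ (DFunLike.congr_fun (congrArg Subtype.val h) v₀).symm⟩⟩
  haveI : NoZeroDivisors C := ⟨fun {a b} h => hnzd a b h⟩
  haveI : IsDomain C := NoZeroDivisors.to_isDomain C
  haveI : Finite C := Subtype.finite
  letI : Field C := (Finite.isField_of_domain C).toField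
  haveI : CharP C p := charP_of_injective_algebraMap (algebraMap F C).injective p
  haveI : IsGalois F C := inferInstance
  let act : P → C → C := fun g T => ⟨ψ (ρ g) * T * ψ (ρ (g : G)⁻¹), hconj g g.2 T T.2⟩
  have hcan : ∀ (g : G), ψ (ρ g⁻¹) * ψ (ρ g) = 1 ∧ ψ (ρ g) * ψ (ρ g⁻¹) = 1 := fun g => by
    constructor <;> rw [← map_mul, ← map_mul] <;> simp
  have hmul : ∀ (g h : P) (T : C), act (g * h) T = act g (act h T) := fun g h T =>
    Subtype.ext (by simp [act, mul_assoc])
  have hone : ∀ T : C, act 1 T = T := fun T => Subtype.ext (by simp [act])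
  let Φ : P →* (C ≃ₐ[F] C) :=
    { toFun := fun g =>
        { toFun := act g
          invFun := act g⁻¹
          left_inv := fun T => by rw [← hmul, inv_mul_cancel, hone]
          right_inv := fun T => by rw [← hmul, mul_inv_cancel, hone]
          map_mul' := fun a b => Subtype.ext (by
            change ψ (ρ g) * ((a : Module.End F U) * b) * ψ (ρ (g : G)⁻¹) =
              (ψ (ρ g) * a * ψ (ρ (g : G)⁻¹)) * (ψ (ρ g) * b * ψ (ρ (g : G)⁻¹))
            simp only [mul_assoc]
            rw [← mul_assoc (ψ (ρ (g : G)⁻¹)) (ψ (ρ (g : G))), (hcan g).1, one_mul])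
          map_add' := fun a b => Subtype.ext (by
            change ψ (ρ g) * ((a : Module.End F U) + b) * ψ (ρ (g : G)⁻¹) =
              ψ (ρ g) * a * ψ (ρ (g : G)⁻¹) + ψ (ρ g) * b * ψ (ρ (g : G)⁻¹)
            rw [mul_add, add_mul])
          commutes' := fun c => Subtype.ext (by
            change ψ (ρ g) * algebraMap F (Module.End F U) c * ψ (ρ (g : G)⁻¹) =
              algebraMap F (Module.End F U) c
            rw [← Algebra.commutes, mul_assoc, (hcan g).2, mul_one]) }
      map_one' := AlgEquiv.ext hone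
      map_mul' := fun g h => AlgEquiv.ext (hmul g h) }
  have hinj : Function.Injective Φ := by
    rw [injective_iff_map_eq_one]
    intro g hg
    have hgC : ψ (ρ g) ∈ C := by
      have h := congrArg Subtype.val (DFunLike.congr_fun hg ⟨ψ z, (hmemC _).2 rfl⟩)
      change ψ (ρ g) * ψ z * ψ (ρ (g : G)⁻¹) = ψ z at h
      refine (hmemC _).2 ?_
      calc ψ (ρ g) * ψ z = ψ (ρ g) * ψ z * (ψ (ρ (g : G)⁻¹) * ψ (ρ g)) := by
            rw [(hcan g).1, mul_one]
        _ = ψ z * ψ (ρ g) := by rw [← mul_assoc, h]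
    obtain ⟨n, hn⟩ := hP g
    let T : C := ⟨ψ (ρ g), hgC⟩
    have hT : T ^ p ^ n = 1 := Subtype.ext (by
      change ψ (ρ g) ^ p ^ n = 1
      rw [← map_pow, ← map_pow, show (g : G) ^ p ^ n = 1 from congrArg Subtype.val hn, map_one,
        map_one])
    have hT1 : T - 1 = 0 := by
      refine pow_eq_zero_iff (pow_ne_zero n (Fact.out : p.Prime).ne_zero) |>.1 ?_
      rw [sub_pow_char_pow, hT, one_pow, sub_self]
    refine Subtype.ext (hker g g.2 (ψinj ?_))
    rw [map_one]
    exact congrArg Subtype.val (sub_eq_zero.1 hT1)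
  have := Subgroup.card_dvd_of_injective Φ hinj
  rwa [IsGalois.card_aut_eq_finrank, hdim] at this

end Cfsg.Agent.MaxSub.SingerSeven
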