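import Cfsg.Agent.MaxSub.SingerSeven.Def

/-!
Without an element of rank at most two the Sylow `p`-order is at most `q ^ 10`: along a flag of a
`p`-group the coordinates modulo the first two steps number `1 + 2 + 3 + 4`.
-/

set_option autoImplicit false
set_option linter.style.haveILetI false

namespace Cfsg.Agent.MaxSub.SingerSeven

open Matrix
open scoped MatrixGroups
open SingerFive

variable {F : Type*} [Field F] {n : ℕ}

/-- The elements of `P` trivial on `W` modulo `B`. -/
def kerMod (P : Subgroup (GL (Fin n) F)) (B : Submodule F (Fin n → F))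
    (hB : ∀ g ∈ P, ∀ v ∈ B, lin g v ∈ B) (W : Submodule F (Fin n → F)) :
    Subgroup (GL (Fin n) F) where
  carrier := {g | g ∈ P ∧ ∀ v ∈ W, lin g v - v ∈ B}
  one_mem' := ⟨P.one_mem, fun v _ => by simp⟩
  mul_mem' := by
    rintro g h ⟨hg, hg'⟩ ⟨hh, hh'⟩
    refine ⟨P.mul_mem hg hh, fun v hv => ?_⟩
    rw [lin_mul_apply, show lin g (lin h v) - v = lin g (lin h v - v) + (lin g v - v) by
      rw [map_sub]; abel]
    exact B.add_mem (hB g hg _ (hh' v hv)) (hg' v hv)
  inv_mem' := by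
    rintro g ⟨hg, hg'⟩
    refine ⟨P.inv_mem hg, fun v hv => ?_⟩
    have h := B.neg_mem (hB g⁻¹ (P.inv_mem hg) _ (hg' v hv))
    rwa [map_sub, lin_inv_apply, neg_sub] at h

theorem mem_kerMod {P : Subgroup (GL (Fin n) F)} {B W : Submodule F (Fin n → F)}
    {hB : ∀ g ∈ P, ∀ v ∈ B, lin g v ∈ B} {g : GL (Fin n) F} :
    g ∈ kerMod P B hB W ↔ g ∈ P ∧ ∀ v ∈ W, lin g v - v ∈ B := Iff.rfl

/-- One step of a flag costs at most `|W / B|`. -/
theorem card_kerMod_step [Fintype F] {P : Subgroup (GL (Fin n) F)} {B W : Submodule F (Fin n → F)}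
    (hB : ∀ g ∈ P, ∀ v ∈ B, lin g v ∈ B) (hBW : B ≤ W) {w : Fin n → F}
    (hw : ∀ g ∈ P, lin g w - w ∈ W) :
    Nat.card (kerMod P B hB W) ≤ Nat.card F ^ (Module.finrank F W - Module.finrank F B) *
      Nat.card (kerMod P B hB (W ⊔ Submodule.span F {w})) := by
  classical
  haveI : Finite (GL (Fin n) F) := inferInstance
  haveI : Finite ((Fin n → F) ⧸ B) := Finite.of_surjective _ (Submodule.Quotient.mk_surjective B)
  let φ : kerMod P B hB W →* Multiplicative ((Fin n → F) ⧸ B) :=
    { toFun := fun g => Multiplicative.ofAdd (B.mkQ (lin (g : GL (Fin n) F) w - w))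
      map_one' := by simp
      map_mul' := fun g h => by
        rw [← ofAdd_add, ← map_add]
        congr 1
        refine (Submodule.Quotient.eq B).2 ?_
        have e := g.2.2 _ (hw _ h.2.1)
        convert e using 1
        simp only [Subgroup.coe_mul, lin_mul_apply, map_sub]
        abel }
  have hker : Nat.card φ.ker ≤ Nat.card (kerMod P B hB (W ⊔ Submodule.span F {w})) := by
    refine Nat.card_le_card_of_injective
      (fun g : φ.ker => ⟨((g : kerMod P B hB W) : GL (Fin n) F), g.1.2.1, fun v hv => ?_⟩) ?_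
    · have hgw : lin ((g : kerMod P B hB W) : GL (Fin n) F) w - w ∈ B :=
        (Submodule.Quotient.mk_eq_zero B).1 (ofAdd_eq_one.1 g.2)
      obtain ⟨a, ha, b, hb, rfl⟩ := Submodule.mem_sup.1 hv
      obtain ⟨c, rfl⟩ := Submodule.mem_span_singleton.1 hb
      rw [map_add, map_smul, add_sub_add_comm, ← smul_sub]
      exact B.add_mem (g.1.2.2 a ha) (B.smul_mem c hgw)
    · intro a b h
      exact Subtype.ext (Subtype.ext (Subtype.mk_eq_mk.1 h))
  have hr : Nat.card φ.range ≤ Nat.card (W.map B.mkQ) := by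
    refine Nat.card_le_card_of_injective
      (fun y : φ.range => ⟨Multiplicative.toAdd (y : Multiplicative ((Fin n → F) ⧸ B)), ?_⟩) ?_
    · obtain ⟨g, hg⟩ := y.2
      rw [← hg]
      exact ⟨_, hw _ g.2.1, rfl⟩
    · intro a b h
      simp only [Subtype.mk.injEq] at h
      exact Subtype.ext (Multiplicative.toAdd.injective h)
  have hfr : Module.finrank F (W.map B.mkQ) = Module.finrank F W - Module.finrank F B := by
    have h := LinearMap.finrank_range_add_finrank_ker (B.mkQ.comp W.subtype)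
    rw [LinearMap.range_comp, Submodule.range_subtype, LinearMap.ker_comp, Submodule.ker_mkQ,
      (Submodule.comapSubtypeEquivOfLe hBW).finrank_eq] at h
    omega
  rw [Module.natCard_eq_pow_finrank (K := F) (V := W.map B.mkQ), hfr] at hr
  rw [← φ.ker.index_mul_card, Subgroup.index_ker]
  exact Nat.mul_le_mul hr hker

theorem finrank_pi_seven : Module.finrank F (Fin 7 → F) = 7 := Module.finrank_fin_fun F

/-- `NoCen` bounds the `p`-subgroups by `q ^ 10`. -/
theorem pPart_le [Fintype F] {p : ℕ} [Fact p.Prime] [CharP F p] {X : Subgroup (GL (Fin 7) F)}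
    (hX : NoCen X) (P : Subgroup (GL (Fin 7) F)) (hP : IsPGroup p P) (hPX : P ≤ X) :
    Nat.card P ≤ Fintype.card F ^ 10 := by
  classical
  have ne_top : ∀ W : Submodule F (Fin 7 → F), Module.finrank F W < 7 → W ≠ ⊤ := fun W h e => by
    rw [e, finrank_top, finrank_pi_seven] at h; omega
  obtain ⟨x, hx, hx1⟩ := exists_fixed_mod hP (ne_top ⊥ (by simp)) fun g _ w hw => by
    rw [(Submodule.mem_bot F).1 hw]; simp
  have hx0 : x ≠ 0 := fun h => hx (by simp [h])
  have hfix : ∀ g ∈ P, lin g x = x := fun g hg => sub_eq_zero.1 ((Submodule.mem_bot F).1 (hx1 g hg))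
  have grow : ∀ (W : Submodule F (Fin 7 → F)) (w : Fin 7 → F),
      (∀ g ∈ P, ∀ v ∈ W, lin g v ∈ W) → (∀ g ∈ P, lin g w - w ∈ W) →
      ∀ g ∈ P, ∀ v ∈ W ⊔ Submodule.span F {w}, lin g v ∈ W ⊔ Submodule.span F {w} := by
    intro W w hi hw g hg v hv
    obtain ⟨a, ha, b, hb, rfl⟩ := Submodule.mem_sup.1 hv
    obtain ⟨c, rfl⟩ := Submodule.mem_span_singleton.1 hb
    rw [map_add, map_smul, show lin g a + c • lin g w = (lin g a + c • (lin g w - w)) + c • w by
      rw [smul_sub]; abel]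
    exact Submodule.add_mem_sup (W.add_mem (hi g hg a ha) (W.smul_mem c (hw g hg)))
      (Submodule.smul_mem _ c (Submodule.mem_span_singleton_self w))
  set W1 : Submodule F (Fin 7 → F) := Submodule.span F {x} with hW1
  have r1 : Module.finrank F W1 = 1 := finrank_span_singleton hx0
  have i1 : ∀ g ∈ P, ∀ w ∈ W1, lin g w ∈ W1 := fun g hg w hw => by
    obtain ⟨c, rfl⟩ := Submodule.mem_span_singleton.1 hw
    rw [map_smul, hfix g hg]
    exact W1.smul_mem c (Submodule.mem_span_singleton_self x)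
  obtain ⟨u, hu, hu1⟩ := exists_fixed_mod hP (ne_top W1 (by omega)) i1
  set B := W1 ⊔ Submodule.span F {u} with hBdef
  have rB : Module.finrank F B = 2 := by rw [finrank_sup_singleton hu, r1]
  have iB := grow W1 u i1 hu1
  have span2 : B = Submodule.span F {x, u} := by rw [hBdef, hW1, Submodule.span_insert]
  have start : P ≤ kerMod P B iB B := fun g hg => ⟨hg, fun v hv => by
    obtain ⟨a, ha, b, hb, rfl⟩ := Submodule.mem_sup.1 hv
    obtain ⟨c, rfl⟩ := Submodule.mem_span_singleton.1 hb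
    obtain ⟨d, rfl⟩ := Submodule.mem_span_singleton.1 ha
    rw [map_add, map_smul, map_smul, hfix g hg, add_sub_add_left_eq_sub, ← smul_sub]
    exact B.smul_mem c (Submodule.mem_sup_left (hu1 g hg))⟩
  have top : kerMod P B iB ⊤ ≤ ⊥ := fun g hg => Subgroup.mem_bot.2 <| by_contra fun hne =>
    hX g x u ⟨(indep_iff hx0).2 hu, hPX hg.1, hne, hfix g hg.1, hu1 g hg.1,
      fun v => span2 ▸ hg.2 v trivial⟩
  -- one step of the flag
  have next1 : ∀ W : Submodule F (Fin 7 → F), B ≤ W → Module.finrank F W < 7 →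
      (∀ g ∈ P, ∀ v ∈ W, lin g v ∈ W) → ∃ W' : Submodule F (Fin 7 → F), B ≤ W' ∧
        Module.finrank F W' = Module.finrank F W + 1 ∧ (∀ g ∈ P, ∀ v ∈ W', lin g v ∈ W') ∧
        Nat.card (kerMod P B iB W) ≤
          Nat.card F ^ (Module.finrank F W - 2) * Nat.card (kerMod P B iB W') := by
    intro W hBW hd hi
    obtain ⟨w, hw, hw1⟩ := exists_fixed_mod hP (ne_top W hd) hi
    refine ⟨W ⊔ Submodule.span F {w}, hBW.trans le_sup_left, finrank_sup_singleton hw,
      grow W w hi hw1, ?_⟩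
    have h := card_kerMod_step iB hBW hw1
    rwa [rB] at h
  obtain ⟨W3, b3, r3, i3, k3⟩ := next1 B le_rfl (by omega) iB
  obtain ⟨W4, b4, r4, i4, k4⟩ := next1 W3 b3 (by omega) i3
  obtain ⟨W5, b5, r5, i5, k5⟩ := next1 W4 b4 (by omega) i4
  obtain ⟨W6, b6, r6, i6, k6⟩ := next1 W5 b5 (by omega) i5
  obtain ⟨W7, -, r7, -, k7⟩ := next1 W6 b6 (by omega) i6
  rw [rB] at k3
  rw [r3, rB] at k4
  rw [r4, r3, rB] at k5
  rw [r5, r4, r3, rB] at k6
  rw [r6, r5, r4, r3, rB] at k7
  have htop : W7 = ⊤ := Submodule.eq_top_of_finrank_eq (by rw [r7, finrank_pi_seven]; omega)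
  have h7 : Nat.card (kerMod P B iB W7) ≤ 1 := by
    rw [htop, ← Subgroup.card_bot (G := GL (Fin 7) F)]
    exact Subgroup.card_le_of_le top
  calc Nat.card P ≤ Nat.card (kerMod P B iB B) := Subgroup.card_le_of_le start
    _ ≤ Nat.card F ^ (2 - 2) * (Nat.card F ^ (2 + 1 - 2) * (Nat.card F ^ (2 + 1 + 1 - 2) *
        (Nat.card F ^ (2 + 1 + 1 + 1 - 2) * (Nat.card F ^ (2 + 1 + 1 + 1 + 1 - 2) * 1)))) :=
      k3.trans (Nat.mul_le_mul_left _ (k4.trans (Nat.mul_le_mul_left _ (k5.trans (Nat.mul_le_mul_left _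
        (k6.trans (Nat.mul_le_mul_left _ (k7.trans (Nat.mul_le_mul_left _ h7)))))))))
    _ = Fintype.card F ^ 10 := by rw [Nat.card_eq_fintype_card]; ring

/-- A non-identity `p`-element of rank at most two gives an element of the kind of `Cen`. -/
theorem cen_of_unipotent [Fintype F] {p : ℕ} [Fact p.Prime] [CharP F p]
    {X : Subgroup (GL (Fin 7) F)} {g : GL (Fin 7) F} (hg : g ∈ X) (h1 : g ≠ 1)
    (hp : IsPGroup p (Subgroup.zpowers g)) {S : Submodule F (Fin 7 → F)}
    (hS : Module.finrank F S ≤ 2) (hg2 : ∀ v, lin g v - v ∈ S) : ¬ NoCen X := by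
  classical
  intro hX
  set R : Submodule F (Fin 7 → F) := LinearMap.range (lin g - LinearMap.id) with hR
  have hRS : R ≤ S := by rintro _ ⟨v, rfl⟩; exact hg2 v
  have mR : ∀ v, lin g v - v ∈ R := fun v => ⟨v, rfl⟩
  have hinv : ∀ v ∈ R, lin g v ∈ R := fun v hv => by
    simpa using R.add_mem (mR v) hv
  have hR2 : Module.finrank F R ≤ 2 := (Submodule.finrank_mono hRS).trans hS
  -- a fixed vector in `R`
  have hpow : ∀ h ∈ Subgroup.zpowers g, ∀ v ∈ R, lin h v ∈ R := fun h hh => by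
    obtain ⟨k, rfl⟩ : ∃ k : ℕ, g ^ k = h :=
      mem_powers_iff_mem_zpowers.2 hh
    induction k with
    | zero => intro v hv; simpa using hv
    | succ k ih =>
      intro v hv
      rw [pow_succ, lin_mul_apply]
      exact ih (pow_mem (Subgroup.mem_zpowers g) k) _ (hinv v hv)
  obtain ⟨x, hxR, hx0, hfix⟩ : ∃ x ∈ R, x ≠ 0 ∧ lin g x = x := by
    letI act : MulAction (Subgroup.zpowers g) R :=
      { smul := fun h v => ⟨lin (h : GL (Fin 7) F) v, hpow h h.2 v v.2⟩
        one_smul := fun v => Subtype.ext (lin_one_apply (v : Fin 7 → F))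
        mul_smul := fun a b v => Subtype.ext (lin_mul_apply (a : GL (Fin 7) F) b v) }
    have hR0 : R ≠ ⊥ := fun e => h1 (eq_one_of_lin fun v =>
      sub_eq_zero.1 ((Submodule.mem_bot F).1 (e ▸ mR v)))
    have hdvd : p ∣ Nat.card R := by
      rw [Module.natCard_eq_pow_finrank (K := F)]
      refine dvd_pow ?_ (Submodule.finrank_eq_zero.not.2 hR0)
      obtain ⟨k, -, hk⟩ := FiniteField.card F p
      rw [Nat.card_eq_fintype_card, hk]
      exact dvd_pow_self p k.ne_zero
    have h0 : (0 : R) ∈ MulAction.fixedPoints (Subgroup.zpowers g) R := fun h =>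
      Subtype.ext (map_zero (lin (h : GL (Fin 7) F)))
    obtain ⟨b, hb, hb0⟩ := hp.exists_fixed_point_of_prime_dvd_card_of_fixed_point R hdvd h0
    exact ⟨b, b.2, fun e => hb0 (Subtype.ext e.symm),
      congrArg Subtype.val (hb ⟨g, Subgroup.mem_zpowers g⟩)⟩
  have r1 : Module.finrank F (Submodule.span F {x}) = 1 := finrank_span_singleton hx0
  by_cases hle : R ≤ Submodule.span F {x}
  · obtain ⟨u, hu⟩ : ∃ u, u ∉ Submodule.span F {x} := by
      by_contra! h
      rw [Submodule.eq_top_iff'.2 h, finrank_top, finrank_pi_seven] at r1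
      omega
    refine hX g x u ⟨(indep_iff hx0).2 hu, hg, h1, hfix, hle (mR u), fun v => ?_⟩
    exact Submodule.span_mono (by simp) (hle (mR v))
  obtain ⟨u, huR, hu⟩ := SetLike.not_le_iff_exists.1 hle
  have hspan : R = Submodule.span F {x, u} := by
    refine (Submodule.eq_of_le_of_finrank_le (Submodule.span_le.2 ?_) ?_).symm
    · simp [Set.insert_subset_iff, hxR, huR]
    · rw [Submodule.span_insert, sup_comm, sup_comm, finrank_sup_singleton hu, r1]
      omega
  refine hX g x u ⟨(indep_iff hx0).2 hu, hg, h1, hfix, ?_, fun v => hspan ▸ mR v⟩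
  obtain ⟨a, b, hab⟩ := Submodule.mem_span_pair.1 (hspan ▸ mR u)
  have hiter : ∀ k : ℕ, lin (g ^ k) u - (1 + b) ^ k • u ∈ Submodule.span F {x} := by
    intro k
    induction k with
    | zero => simp
    | succ k ih =>
      obtain ⟨c, hc⟩ := Submodule.mem_span_singleton.1 ih
      refine Submodule.mem_span_singleton.2 ⟨c + (1 + b) ^ k * a, ?_⟩
      rw [pow_succ', lin_mul_apply, ← sub_add_cancel (lin (g ^ k) u) ((1 + b) ^ k • u), ← hc,
        map_add, map_smul, map_smul, hfix, ← sub_add_cancel (lin g u) u, ← hab, pow_succ]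
      module
  obtain ⟨k, hk⟩ := hp ⟨g, Subgroup.mem_zpowers g⟩
  have hk' : g ^ p ^ k = 1 := congrArg Subtype.val hk
  have hb : (1 + b) ^ p ^ k = 1 := by
    by_contra hne
    refine hu ?_
    have h := hiter (p ^ k)
    rw [hk', lin_one_apply, ← one_smul F u, smul_smul, mul_one, ← sub_smul] at h
    have h' := (Submodule.span F {x}).smul_mem (1 - (1 + b) ^ p ^ k)⁻¹ h
    rwa [inv_smul_smul₀ (sub_ne_zero.2 (Ne.symm hne))] at h'
  rw [add_pow_char_pow, one_pow, add_eq_left] at hb
  rw [show b = 0 from pow_eq_zero_iff (pow_ne_zero _ (Fact.out : p.Prime).ne_zero) |>.1 hb,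
    zero_smul, add_zero] at hab
  exact Submodule.mem_span_singleton.2 ⟨a, hab⟩

end Cfsg.Agent.MaxSub.SingerSeven
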