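import Cfsg.Agent.MaxSub.SingerSeven.Def

/-!
The normaliser of a Sylow subgroup of the stabiliser of two vectors is transitive on independent
pairs of fixed vectors.
-/

set_option autoImplicit false
set_option linter.unusedSectionVars false
set_option linter.style.haveILetI false

namespace Cfsg.Agent.MaxSub.SingerSeven

open Matrix
open scoped MatrixGroups
open SingerFive

variable {F : Type*} [Field F] {n : ℕ} {X : Subgroup (GL (Fin n) F)} {x u : Fin n → F}

/-- The stabiliser in `X` of the two vectors `x` and `u`. -/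
def vecStab (X : Subgroup (GL (Fin n) F)) (x u : Fin n → F) : Subgroup (GL (Fin n) F) where
  carrier := {g | g ∈ X ∧ lin g x = x ∧ lin g u = u}
  one_mem' := ⟨X.one_mem, lin_one_apply x, lin_one_apply u⟩
  mul_mem' := by
    rintro g h ⟨hg, ex, eu⟩ ⟨hh, ex', eu'⟩
    exact ⟨X.mul_mem hg hh, by rw [lin_mul_apply, ex', ex], by rw [lin_mul_apply, eu', eu]⟩
  inv_mem' := by
    rintro g ⟨hg, ex, eu⟩
    exact ⟨X.inv_mem hg, by conv_lhs => rw [← ex, lin_inv_apply],
      by conv_lhs => rw [← eu, lin_inv_apply]⟩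

lemma mem_vecStab {g : GL (Fin n) F} : g ∈ vecStab X x u ↔ g ∈ X ∧ lin g x = x ∧ lin g u = u :=
  Iff.rfl

/-- The fixed space of `R`. -/
def fixSpace (R : Subgroup (GL (Fin n) F)) : Submodule F (Fin n → F) where
  carrier := {v | ∀ h ∈ R, lin h v = v}
  add_mem' := fun hv hw h hh => by rw [map_add, hv h hh, hw h hh]
  zero_mem' := fun h _ => map_zero _
  smul_mem' := fun c v hv h hh => by rw [map_smul, hv h hh]

lemma mem_fixSpace {R : Subgroup (GL (Fin n) F)} {v : Fin n → F} :
    v ∈ fixSpace R ↔ ∀ h ∈ R, lin h v = v := Iff.rfl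

/-- The commutator space of `R`. -/
def moveSpace (R : Subgroup (GL (Fin n) F)) : Submodule F (Fin n → F) :=
  Submodule.span F {w | ∃ h ∈ R, ∃ v, w = lin h v - v}

lemma sub_mem_moveSpace {R : Subgroup (GL (Fin n) F)} {h : GL (Fin n) F} (hh : h ∈ R)
    (v : Fin n → F) : lin h v - v ∈ moveSpace R :=
  Submodule.subset_span ⟨h, hh, v, rfl⟩

theorem fixSpace_inv {R : Subgroup (GL (Fin n) F)} {g : GL (Fin n) F}
    (hg : g ∈ Subgroup.normalizer (R : Set (GL (Fin n) F))) {v : Fin n → F} (hv : v ∈ fixSpace R) :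
    lin g v ∈ fixSpace R := by
  intro h hh
  have h1 : g⁻¹ * h * g ∈ R := by
    rw [Subgroup.mem_normalizer_iff.1 hg, show g * (g⁻¹ * h * g) * g⁻¹ = h by group]
    exact hh
  rw [← lin_mul_apply, show h * g = g * (g⁻¹ * h * g) by group, lin_mul_apply, hv _ h1]

theorem moveSpace_inv {R : Subgroup (GL (Fin n) F)} {g : GL (Fin n) F}
    (hg : g ∈ Subgroup.normalizer (R : Set (GL (Fin n) F))) {w : Fin n → F} (hw : w ∈ moveSpace R) :
    lin g w ∈ moveSpace R := by
  suffices moveSpace R ≤ (moveSpace R).comap (lin g) from this hw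
  refine Submodule.span_le.2 ?_
  rintro _ ⟨h, hh, v, rfl⟩
  show lin g (lin h v - v) ∈ moveSpace R
  rw [map_sub, ← lin_mul_apply, show g * h = g * h * g⁻¹ * g by group, lin_mul_apply]
  exact sub_mem_moveSpace ((Subgroup.mem_normalizer_iff.1 hg h).1 hh) _

variable [Fintype F]

theorem isCompl_fix_move {R : Subgroup (GL (Fin n) F)} (hR : (Nat.card R : F) ≠ 0) :
    IsCompl (fixSpace R) (moveSpace R) := by
  classical
  letI := Fintype.ofFinite R
  set π : (Fin n → F) →ₗ[F] (Fin n → F) :=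
    (Nat.card R : F)⁻¹ • ∑ h : R, lin (h : GL (Fin n) F) with hπ
  have hπv : ∀ v, π v = (Nat.card R : F)⁻¹ • ∑ h : R, lin (h : GL (Fin n) F) v := fun v => by
    simp only [hπ, LinearMap.smul_apply, LinearMap.sum_apply]
  have hfix : ∀ v ∈ fixSpace R, π v = v := fun v hv => by
    rw [hπv, Finset.sum_congr rfl fun (h : R) _ => hv h h.2, Finset.sum_const, Finset.card_univ,
      ← Nat.card_eq_fintype_card, ← Nat.cast_smul_eq_nsmul F, inv_smul_smul₀ hR]
  have hmove : moveSpace R ≤ LinearMap.ker π := by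
    refine Submodule.span_le.2 ?_
    rintro _ ⟨g, hg, v, rfl⟩
    rw [SetLike.mem_coe, LinearMap.mem_ker, map_sub, sub_eq_zero, hπv, hπv]
    congr 1
    refine Fintype.sum_equiv (Equiv.mulRight ⟨g, hg⟩) _ _ fun h => ?_
    rw [Equiv.coe_mulRight, Subgroup.coe_mul, lin_mul_apply]
  refine ⟨Submodule.disjoint_def.2 fun v hv hv' => ?_, codisjoint_iff.2 (eq_top_iff.2 fun v _ => ?_)⟩
  · rw [← hfix v hv]
    exact hmove hv'
  · refine Submodule.mem_sup.2 ⟨π v, fun g hg => ?_, v - π v, ?_, by abel⟩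
    · rw [hπv, map_smul, map_sum]
      congr 1
      refine Fintype.sum_equiv (Equiv.mulLeft ⟨g, hg⟩) _ _ fun h => ?_
      rw [Equiv.coe_mulLeft, Subgroup.coe_mul, lin_mul_apply]
    · have e : v - π v = (Nat.card R : F)⁻¹ • ∑ h : R, (v - lin (h : GL (Fin n) F) v) := by
        rw [Finset.sum_sub_distrib, smul_sub, Finset.sum_const, Finset.card_univ,
          ← Nat.card_eq_fintype_card, ← Nat.cast_smul_eq_nsmul F, inv_smul_smul₀ hR, hπv]
      rw [e]
      refine Submodule.smul_mem _ _ (Submodule.sum_mem _ fun h _ => ?_)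
      rw [← neg_sub]
      exact Submodule.neg_mem _ (sub_mem_moveSpace h.2 v)

omit [Fintype F] in
lemma scalar_ne_zero {g : GL (Fin n) F} {v w : Fin n → F} {a : F} (hv : v ≠ 0)
    (e : lin g v = a • w) : a ≠ 0 := fun h => hv (by rw [← lin_inv_apply g v, e, h, zero_smul, map_zero])

/-- The scalars on two fixed lines. -/
theorem pairStab_dvd (hxu : LinearIndependent F ![x, u]) :
    Nat.card (pairStab X x u) ∣ Nat.card (vecStab X x u) * (Fintype.card F - 1) ^ 2 := by
  classical
  have hx : x ≠ 0 := hxu.ne_zero 0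
  have hu : u ≠ 0 := hxu.ne_zero 1
  choose a ha ea using fun g : pairStab X x u => g.2.2.1
  choose b hb eb using fun g : pairStab X x u => g.2.2.2
  have hmul : ∀ g h : pairStab X x u, a (g * h) = a g * a h ∧ b (g * h) = b g * b h := by
    intro g h
    constructor
    · refine smul_left_injective F hx ?_
      show a (g * h) • x = (a g * a h) • x
      rw [← ea, Subgroup.coe_mul, lin_mul_apply, ea, map_smul, ea, smul_smul, mul_comm]
    · refine smul_left_injective F hu ?_
      show b (g * h) • u = (b g * b h) • u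
      rw [← eb, Subgroup.coe_mul, lin_mul_apply, eb, map_smul, eb, smul_smul, mul_comm]
  let f : pairStab X x u →* Fˣ × Fˣ :=
    MonoidHom.mk' (fun g => (Units.mk0 (a g) (ha g), Units.mk0 (b g) (hb g)))
      fun g h => Prod.ext (Units.ext (hmul g h).1) (Units.ext (hmul g h).2)
  have h1 := Subgroup.card_mul_index f.ker
  rw [Subgroup.index_ker] at h1
  rw [← h1]
  refine mul_dvd_mul (dvd_of_eq (Nat.card_congr ?_)) ?_
  · refine
      { toFun := fun g => ⟨(g.1 : GL (Fin n) F), g.1.2.1, ?_, ?_⟩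
        invFun := fun g => ⟨⟨g.1, g.2.1, ⟨1, one_ne_zero, by rw [one_smul]; exact g.2.2.1⟩,
          1, one_ne_zero, by rw [one_smul]; exact g.2.2.2⟩, ?_⟩
        left_inv := fun _ => rfl
        right_inv := fun _ => rfl }
    · have : a g.1 = 1 := congrArg (fun z : Fˣ × Fˣ => (z.1 : F)) (MonoidHom.mem_ker.1 g.2)
      rw [ea, this, one_smul]
    · have : b g.1 = 1 := congrArg (fun z : Fˣ × Fˣ => (z.2 : F)) (MonoidHom.mem_ker.1 g.2)
      rw [eb, this, one_smul]
    · refine MonoidHom.mem_ker.2 (Prod.ext (Units.ext ?_) (Units.ext ?_))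
      · refine smul_left_injective F hx ?_
        show a _ • x = (1 : F) • x
        exact (ea _).symm.trans (g.2.2.1.trans (one_smul F x).symm)
      · refine smul_left_injective F hu ?_
        show b _ • u = (1 : F) • u
        exact (eb _).symm.trans (g.2.2.2.trans (one_smul F u).symm)
  · have := Subgroup.card_subgroup_dvd_card f.range
    rwa [Nat.card_prod, Nat.card_units, Nat.card_eq_fintype_card (α := F), ← pow_two] at this

/-- Witt's lemma. -/
theorem witt {r : ℕ} [Fact r.Prime] (hP : PairTrans X) (hxu : LinearIndependent F ![x, u])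
    (R : Subgroup (GL (Fin n) F)) (hR : R ≤ vecStab X x u) (hRp : IsPGroup r R)
    (hsyl : ¬ r ∣ R.relIndex (vecStab X x u)) {x' u' : Fin n → F}
    (hxu' : LinearIndependent F ![x', u']) (hx' : x' ∈ fixSpace R) (hu' : u' ∈ fixSpace R) :
    ∃ k ∈ X ⊓ Subgroup.normalizer (R : Set (GL (Fin n) F)), ∃ a b : F, a ≠ 0 ∧ b ≠ 0 ∧
      lin k x' = a • x ∧ lin k u' = b • u := by
  classical
  obtain ⟨k₀, hk₀, a, b, ea, eb⟩ := hP x' u' x u hxu' hxu
  have ea' : lin k₀ x' = a • x := by simpa using ea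
  have eb' : lin k₀ u' = b • u := by simpa using eb
  have ha := scalar_ne_zero (hxu'.ne_zero 0) ea'
  have hb := scalar_ne_zero (hxu'.ne_zero 1) eb'
  set S := vecStab X x u
  have hconj : ∀ h ∈ R, k₀ * h * k₀⁻¹ ∈ S := by
    intro h hh
    have fix : ∀ {v v' : Fin n → F} {c : F}, c ≠ 0 → lin k₀ v = c • v' → lin h v = v →
        lin (k₀ * h * k₀⁻¹) v' = v' := by
      intro v v' c hc e ev
      refine smul_right_injective (Fin n → F) hc ?_
      simp only
      rw [← map_smul, ← e, lin_mul_apply, lin_mul_apply, lin_inv_apply, ev]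
    exact ⟨X.mul_mem (X.mul_mem hk₀ (hR hh).1) (X.inv_mem hk₀), fix ha ea' (hx' h hh), fix hb eb' (hu' h hh)⟩
  let ι : R →* S := MonoidHom.mk' (fun h => (⟨k₀ * h * k₀⁻¹, hconj h h.2⟩ : S))
    fun g h => Subtype.ext (by
      simp only [Subgroup.coe_mul]
      group)
  have hι : Function.Injective ι := fun g h e => Subtype.ext (mul_left_cancel (mul_right_cancel (congrArg Subtype.val e)))
  let Q : Sylow r S := (hRp.comap_subtype (K := S)).toSylow hsyl
  have hrange : IsPGroup r ι.range := by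
    exact hRp.of_surjective ι.rangeRestrict ι.rangeRestrict_surjective
  obtain ⟨P, hPle⟩ := hrange.exists_le_sylow
  obtain ⟨g, hg⟩ := MulAction.exists_smul_eq S P Q
  have hmem : ∀ h : R, ((g * ι h * g⁻¹ : S) : GL (Fin n) F) ∈ R := by
    intro h
    have h1 : g • ι h • (1 : S) = g * ι h * 1 := by simp [mul_assoc]
    have h2 : g * ι h * g⁻¹ ∈ ((g • P : Sylow r S) : Subgroup S) := by
      rw [Sylow.coe_subgroup_smul]
      exact Subgroup.smul_mem_pointwise_smul (ι h) (MulAut.conj g) _ (hPle ⟨h, rfl⟩)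
    rw [hg] at h2
    exact h2
  set k : GL (Fin n) F := (g : GL (Fin n) F) * k₀
  have hk : ∀ h ∈ R, k * h * k⁻¹ ∈ R := by
    intro h hh
    have := hmem ⟨h, hh⟩
    have e : k * h * k⁻¹ = ((g * ι ⟨h, hh⟩ * g⁻¹ : S) : GL (Fin n) F) := by
      show (g : GL (Fin n) F) * k₀ * h * ((g : GL (Fin n) F) * k₀)⁻¹ =
        (g : GL (Fin n) F) * (k₀ * h * k₀⁻¹) * (g : GL (Fin n) F)⁻¹
      group
    rw [e]; exact this
  have hkn : k ∈ Subgroup.normalizer (R : Set (GL (Fin n) F)) := by
    have hmap : R.map (MulAut.conj k).toMonoidHom = R := by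
      refine Subgroup.eq_of_le_of_card_ge ?_ ?_
      · rintro _ ⟨h, hh, rfl⟩
        exact hk h hh
      · rw [Subgroup.card_map_of_injective (MulAut.conj k).injective]
    rw [Subgroup.mem_normalizer_iff]
    intro h
    refine ⟨hk h, fun hh => ?_⟩
    rw [← hmap] at hh
    obtain ⟨h', hh', e⟩ := hh
    have : h' = h := (MulAut.conj k).injective e
    exact this ▸ hh'
  refine ⟨k, ⟨X.mul_mem g.2.1 hk₀, hkn⟩, a, b, ha, hb, ?_, ?_⟩
  · rw [lin_mul_apply, ea', map_smul, g.2.2.1]
  · rw [lin_mul_apply, eb', map_smul, g.2.2.2]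

/-- The normaliser of the Sylow subgroup is transitive on independent pairs of fixed vectors. -/
theorem card_normalizer_dvd {r : ℕ} [Fact r.Prime] (hP : PairTrans X)
    (hxu : LinearIndependent F ![x, u]) (R : Subgroup (GL (Fin n) F)) (hR : R ≤ vecStab X x u)
    (hRp : IsPGroup r R) (hsyl : ¬ r ∣ R.relIndex (vecStab X x u))
    (hw : 2 ≤ Module.finrank F (fixSpace R)) :
    (Fintype.card F ^ Module.finrank F (fixSpace R) - 1) *
        (Fintype.card F ^ Module.finrank F (fixSpace R) - Fintype.card F) ∣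
      Nat.card ↥(X ⊓ Subgroup.normalizer (R : Set (GL (Fin n) F))) * (Fintype.card F - 1) ^ 2 := by
  classical
  set N := X ⊓ Subgroup.normalizer (R : Set (GL (Fin n) F))
  set W := fixSpace R
  have hxW : x ∈ W := fun h hh => (hR hh).2.1
  have huW : u ∈ W := fun h hh => (hR hh).2.2
  letI act : MulAction (↥N × Fˣ × Fˣ) ((Fin n → F) × (Fin n → F)) :=
    { smul := fun p z => ((p.2.1 : F) • lin (p.1 : GL (Fin n) F) z.1,
        (p.2.2 : F) • lin (p.1 : GL (Fin n) F) z.2)
      one_smul := fun z => by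
        show (((1 : Fˣ) : F) • lin (1 : GL (Fin n) F) z.1, ((1 : Fˣ) : F) • lin (1 : GL (Fin n) F) z.2) = z
        simp
      mul_smul := fun p p' z => by
        refine Prod.ext ?_ ?_
        · show ((p.2.1 * p'.2.1 : Fˣ) : F) • lin ((p.1 : GL (Fin n) F) * (p'.1 : GL (Fin n) F)) z.1 =
            (p.2.1 : F) • lin _ ((p'.2.1 : F) • lin _ z.1)
          rw [lin_mul_apply, map_smul, smul_smul, Units.val_mul]
        · show ((p.2.2 * p'.2.2 : Fˣ) : F) • lin ((p.1 : GL (Fin n) F) * (p'.1 : GL (Fin n) F)) z.2 =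
            (p.2.2 : F) • lin _ ((p'.2.2 : F) • lin _ z.2)
          rw [lin_mul_apply, map_smul, smul_smul, Units.val_mul] }
  let T := {z : (Fin n → F) × (Fin n → F) // z.1 ∈ W ∧ z.2 ∈ W ∧ LinearIndependent F ![z.1, z.2]}
  have horb : Nat.card (MulAction.orbit (↥N × Fˣ × Fˣ) (x, u)) = Nat.card T := by
    refine Nat.card_congr (Equiv.subtypeEquivRight fun z => ⟨?_, ?_⟩)
    · rintro ⟨⟨g, s, t⟩, rfl⟩
      refine ⟨W.smul_mem _ (fixSpace_inv g.2.2 hxW), W.smul_mem _ (fixSpace_inv g.2.2 huW), ?_⟩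
      show LinearIndependent F ![(s : F) • lin (g : GL (Fin n) F) x, (t : F) • lin (g : GL (Fin n) F) u]
      refine LinearIndependent.pair_iff.2 fun c d h => ?_
      have h' := congrArg (lin (g : GL (Fin n) F)⁻¹) h
      simp only [map_add, map_smul, lin_inv_apply, map_zero, smul_smul] at h'
      obtain ⟨h1, h2⟩ := LinearIndependent.pair_iff.1 hxu _ _ h'
      exact ⟨(mul_eq_zero.1 h1).resolve_right (Units.ne_zero s),
        (mul_eq_zero.1 h2).resolve_right (Units.ne_zero t)⟩
    · rintro ⟨h1, h2, h3⟩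
      obtain ⟨k, hk, a, b, ha, hb, ea, eb⟩ := witt hP hxu R hR hRp hsyl h3 h1 h2
      refine ⟨(⟨k⁻¹, N.inv_mem hk⟩, Units.mk0 a ha, Units.mk0 b hb), ?_⟩
      refine Prod.ext ?_ ?_
      · show a • lin k⁻¹ x = z.1
        rw [← map_smul, ← ea, lin_inv_apply]
      · show b • lin k⁻¹ u = z.2
        rw [← map_smul, ← eb, lin_inv_apply]
  have hpair : ∀ s : Fin 2 → W, LinearIndependent F s ↔
      LinearIndependent F ![((s 0 : W) : Fin n → F), ((s 1 : W) : Fin n → F)] := by
    intro s
    rw [← LinearMap.linearIndependent_iff W.subtype W.ker_subtype]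
    have : W.subtype ∘ s = ![((s 0 : W) : Fin n → F), ((s 1 : W) : Fin n → F)] := by
      funext i; fin_cases i <;> rfl
    rw [this]
  have hT : Nat.card T = (Fintype.card F ^ Module.finrank F W - 1) *
      (Fintype.card F ^ Module.finrank F W - Fintype.card F) := by
    have e : {s : Fin 2 → W // LinearIndependent F s} ≃ T :=
      { toFun := fun s => ⟨((s.1 0 : Fin n → F), (s.1 1 : Fin n → F)), (s.1 0).2, (s.1 1).2,
          (hpair _).1 s.2⟩
        invFun := fun z => ⟨![⟨z.1.1, z.2.1⟩, ⟨z.1.2, z.2.2.1⟩], (hpair _).2 z.2.2.2⟩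
        left_inv := fun s => Subtype.ext (funext fun i => by fin_cases i <;> rfl)
        right_inv := fun z => rfl }
    rw [← Nat.card_congr e, card_linearIndependent (K := F) (V := W) hw, Fin.prod_univ_two]
    simp
  have hdvd : Nat.card (MulAction.orbit (↥N × Fˣ × Fˣ) (x, u)) ∣ Nat.card (↥N × Fˣ × Fˣ) := by
    rw [Nat.card_congr (MulAction.orbitEquivQuotientStabilizer _ _)]
    exact Subgroup.card_quotient_dvd_card _
  rw [horb, hT, Nat.card_prod, Nat.card_prod, Nat.card_units,
    Nat.card_eq_fintype_card (α := F), ← pow_two] at hdvd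
  exact hdvd

end Cfsg.Agent.MaxSub.SingerSeven
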