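import Cfsg.Agent.MaxSub.SingerSeven.Def
import Cfsg.Agent.MaxSub.SingerSeven.FieldBound
import Cfsg.Agent.MaxSub.SingerSeven.Pigeon
import Cfsg.Agent.MaxSub.SingerSeven.Bound
import Cfsg.Agent.MaxSub.SingerSeven.Witt

/-!
No prime of multiplicative order `3`, `4` or `5` for `q` divides a pair stabiliser, apart from a few
small fields.
-/

set_option autoImplicit false
set_option linter.style.haveILetI false
set_option linter.unusedSectionVars false

namespace Cfsg.Agent.MaxSub.SingerSeven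

open Matrix
open scoped MatrixGroups
open SingerFive

variable {F : Type*} [Field F] [Fintype F]

/-- The action of a subgroup on an invariant subspace. -/
def restrHom {n : ℕ} (G : Subgroup (GL (Fin n) F)) (U : Submodule F (Fin n → F))
    (hU : ∀ g ∈ G, ∀ v ∈ U, lin g v ∈ U) : G →* (U ≃ₗ[F] U) where
  toFun g :=
    { toFun := fun v => ⟨lin (g : GL (Fin n) F) v, hU g g.2 v v.2⟩
      invFun := fun v => ⟨lin ((g : GL (Fin n) F)⁻¹) v, hU _ (G.inv_mem g.2) v v.2⟩
      left_inv := fun v => Subtype.ext (lin_inv_apply _ _)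
      right_inv := fun v => Subtype.ext (lin_apply_inv _ _)
      map_add' := fun v w => Subtype.ext (map_add _ _ _)
      map_smul' := fun c v => Subtype.ext (map_smul _ _ _) }
  map_one' := LinearEquiv.ext fun v => Subtype.ext (lin_one_apply _)
  map_mul' g h := LinearEquiv.ext fun v => Subtype.ext (lin_mul_apply _ _ _)

omit [Fintype F] in
@[simp] theorem coe_restrHom {n : ℕ} (G : Subgroup (GL (Fin n) F)) (U : Submodule F (Fin n → F))
    (hU : ∀ g ∈ G, ∀ v ∈ U, lin g v ∈ U) (g : G) (v : U) :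
    ((restrHom G U hU g v : U) : Fin n → F) = lin (g : GL (Fin n) F) v := rfl

/-- A `p`-element is not surjective minus one on a non-zero invariant subspace. -/
theorem finrank_range_lt {p : ℕ} [Fact p.Prime] [CharP F p] {n : ℕ} {g : GL (Fin n) F}
    (hp : IsPGroup p (Subgroup.zpowers g)) {W : Submodule F (Fin n → F)} (hW0 : W ≠ ⊥)
    (hW : ∀ v ∈ W, lin g v ∈ W) :
    Module.finrank F (W.map (lin g - LinearMap.id)) < Module.finrank F W := by
  haveI : Nontrivial W := Submodule.nontrivial_iff_ne_bot.2 hW0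
  let f : Module.End F W := (lin g).restrict hW
  haveI : CharP (Module.End F W) p :=
    charP_of_injective_algebraMap (algebraMap F (Module.End F W)).injective p
  obtain ⟨k, hk⟩ := hp ⟨g, Subgroup.mem_zpowers g⟩
  have hk' : g ^ p ^ k = 1 := congrArg Subtype.val hk
  have hpow : ∀ (j : ℕ) (v : W), ((f ^ j) v : Fin n → F) = lin (g ^ j) v := by
    intro j
    induction j with
    | zero => intro v; simp
    | succ j ih =>
      intro v
      rw [pow_succ, pow_succ, Module.End.mul_apply, ih, lin_mul_apply]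
      rfl
  have hf : f ^ p ^ k = 1 := LinearMap.ext fun v => Subtype.ext (by rw [hpow, hk', lin_one_apply]; rfl)
  have hnil : (f - 1) ^ p ^ k = 0 := by
    rw [sub_pow_char_pow_of_commute p k (x := f) (y := (1 : Module.End F W)) (Commute.one_right f), hf, one_pow, sub_self]
  have hle : W.map (lin g - LinearMap.id) ≤ W := by
    rintro _ ⟨v, hv, rfl⟩
    exact W.sub_mem (hW v hv) hv
  refine lt_of_le_of_ne (Submodule.finrank_mono hle) fun h => ?_
  have heq := Submodule.eq_of_le_of_finrank_eq hle h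
  have hsurj : Function.Surjective (f - 1 : Module.End F W) := fun w => by
    obtain ⟨v, hv, e⟩ : (w : Fin n → F) ∈ W.map (lin g - LinearMap.id) := heq.symm ▸ w.2
    exact ⟨⟨v, hv⟩, Subtype.ext e⟩
  have h0 : Function.Surjective ((f - 1) ^ p ^ k : Module.End F W) := by
    rw [Module.End.coe_pow]
    exact hsurj.iterate _
  rw [hnil] at h0
  obtain ⟨a, ha⟩ := exists_ne (0 : W)
  obtain ⟨b, hb⟩ := h0 a
  exact ha hb.symm

/-- The number of linear automorphisms. -/
theorem card_linearEquiv_self {U : Type*} [AddCommGroup U] [Module F U] [FiniteDimensional F U]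
    {d : ℕ} (hd : Module.finrank F U = d) :
    Nat.card (U ≃ₗ[F] U) = ∏ i : Fin d, (Fintype.card F ^ d - Fintype.card F ^ (i : ℕ)) := by
  rw [← Matrix.card_GL_field]
  let e := (Module.finBasisOfFinrankEq F U hd).equivFun
  exact (Nat.card_congr
    ((Matrix.GeneralLinearGroup.toLin.trans
      (LinearMap.GeneralLinearGroup.generalLinearEquiv F (Fin d → F))).toEquiv.trans
      { toFun := fun f => e.trans (f.trans e.symm)
        invFun := fun f => e.symm.trans (f.trans e)
        left_inv := fun f => by ext v; simp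
        right_inv := fun f => by ext v; simp })).symm

theorem exists_sylow_data {r : ℕ} [Fact r.Prime] {G : Type*} [Group G] [Finite G] (H : Subgroup G)
    (h : r ∣ Nat.card H) :
    ∃ R : Subgroup G, R ≤ H ∧ IsPGroup r R ∧ ¬ r ∣ R.relIndex H ∧ R ≠ ⊥ := by
  obtain ⟨S⟩ : Nonempty (Sylow r H) := inferInstance
  refine ⟨(S : Subgroup H).map H.subtype, Subgroup.map_subtype_le _, S.isPGroup'.map _, ?_, ?_⟩
  · rw [Subgroup.relIndex, Subgroup.subgroupOf, Subgroup.comap_map_eq_self_of_injective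
      H.subtype_injective]
    exact S.not_dvd_index
  · intro e
    have h1 := (Subgroup.map_eq_bot_iff_of_injective _ H.subtype_injective).1 e
    have := S.dvd_card_of_dvd_card h
    rw [h1, Subgroup.card_bot, Nat.dvd_one] at this
    exact (Fact.out : r.Prime).ne_one this

/-- The common part of the exclusions. -/
theorem setup {p : ℕ} [Fact p.Prime] [CharP F p] {X : Subgroup (GL (Fin 7) F)}
    (hP : PairTrans X) {x u : Fin 7 → F} (hxu : LinearIndependent F ![x, u]) {r k : ℕ} [Fact r.Prime]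
    (hr1 : ¬ r ∣ Fintype.card F - 1) (hk0 : 0 < k) (hrk : r ∣ Fintype.card F ^ k - 1)
    (huniq : ∀ d, 0 < d → d ≤ 5 → r ∣ Fintype.card F ^ d - 1 → d = k)
    (hdvd : r ∣ Nat.card (pairStab X x u)) :
    ∃ R N : Subgroup (GL (Fin 7) F), N ≤ X ∧ N ≤ Subgroup.normalizer (R : Set (GL (Fin 7) F)) ∧
      R ≤ N ∧ IsPGroup r R ∧ IsCompl (fixSpace R) (moveSpace R) ∧
      Module.finrank F (fixSpace R) + k = 7 ∧ Module.finrank F (moveSpace R) = k ∧
      Fintype.card F ∣ Nat.card N ∧
      Fintype.card F ^ (7 - k) - 1 ∣ Nat.card N * (Fintype.card F - 1) ^ 2 := by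
  classical
  set q := Fintype.card F with hq
  have hq2 : 2 ≤ q := Fintype.one_lt_card
  have hr : r.Prime := Fact.out
  obtain ⟨e, -, he⟩ := FiniteField.card F p
  have hrq : ¬ r ∣ q := fun h => by
    have h1 : r ∣ q ^ k := dvd_pow h (by omega)
    have := Nat.dvd_sub h1 hrk
    rw [Nat.sub_sub_self (Nat.one_le_pow _ _ (by omega))] at this
    exact hr.ne_one (Nat.dvd_one.1 this)
  have hrF : (r : F) ≠ 0 := fun h => by
    rw [CharP.cast_eq_zero_iff F p, Nat.prime_dvd_prime_iff_eq Fact.out hr] at h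
    exact hrq (by rw [hq, he, ← h]; exact dvd_pow_self p e.ne_zero)
  have hv : r ∣ Nat.card (vecStab X x u) := by
    rcases hr.dvd_mul.1 (hdvd.trans (pairStab_dvd hxu)) with h | h
    · exact h
    · exact absurd (hr.dvd_of_dvd_pow h) hr1
  obtain ⟨R, hRle, hRp, hsyl, hR1⟩ := exists_sylow_data (vecStab X x u) hv
  have hRcard : (Nat.card R : F) ≠ 0 := by
    obtain ⟨a, ha⟩ := IsPGroup.iff_card.1 hRp
    rw [ha, Nat.cast_pow]
    exact pow_ne_zero _ hrF
  have hc := isCompl_fix_move hRcard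
  have hxW : x ∈ fixSpace R := fun h hh => (mem_vecStab.1 (hRle hh)).2.1
  have huW : u ∈ fixSpace R := fun h hh => (mem_vecStab.1 (hRle hh)).2.2
  have hw2 : 2 ≤ Module.finrank F (fixSpace R) := by
    have hli : LinearIndependent F ![(⟨x, hxW⟩ : fixSpace R), ⟨u, huW⟩] := by
      refine LinearIndependent.of_comp (fixSpace R).subtype ?_
      have e : ((fixSpace R).subtype ∘ ![(⟨x, hxW⟩ : fixSpace R), ⟨u, huW⟩]) = ![x, u] := by
        ext i : 1; fin_cases i <;> rfl
      rwa [e]
    simpa using hli.fintype_card_le_finrank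
  have hsum := Submodule.finrank_add_eq_of_isCompl hc
  rw [Module.finrank_fin_fun] at hsum
  set N := X ⊓ Subgroup.normalizer (R : Set (GL (Fin 7) F)) with hN
  have hRN : R ≤ N := le_inf (fun h hh => (mem_vecStab.1 (hRle hh)).1) Subgroup.le_normalizer
  have hUinv : ∀ g ∈ N, ∀ v ∈ moveSpace R, lin g v ∈ moveSpace R := fun g hg =>
    fun v hv => moveSpace_inv hg.2 hv
  have hd0 : Module.finrank F (moveSpace R) ≠ 0 := fun h0 => hR1 <| by
    rw [Submodule.finrank_eq_zero] at h0
    have htop : fixSpace R = ⊤ := by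
      have h := hc.sup_eq_top
      rwa [h0, sup_bot_eq] at h
    exact (Subgroup.eq_bot_iff_forall R).2 fun h hh =>
      eq_one_of_lin fun v => (htop.symm ▸ Submodule.mem_top : v ∈ fixSpace R) h hh
  have hdk : Module.finrank F (moveSpace R) = k := by
    refine huniq _ (Nat.pos_of_ne_zero hd0) (by omega) ?_
    set ρ := restrHom N (moveSpace R) hUinv
    have h := dvd_card_pow_sub_one (r := r) (S := (R.subgroupOf N).map ρ)
      ((hRp.of_equiv (Subgroup.subgroupOfEquivOfLe hRN).symm).map ρ) ⊤ (fun _ _ _ _ => trivial)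
      (fun v _ hv' => by
        have hW : (v : Fin 7 → F) ∈ fixSpace R := fun h hh => congrArg Subtype.val
          (hv' (ρ ⟨h, hRN hh⟩) ⟨⟨h, hRN hh⟩, hh, rfl⟩)
        exact Subtype.ext (Submodule.disjoint_def.1 hc.disjoint _ hW v.2))
    rwa [finrank_top] at h
  have hN' := card_normalizer_dvd hP hxu R hRle hRp hsyl hw2
  rw [show Module.finrank F (fixSpace R) = 7 - k by omega, ← hN] at hN'
  refine ⟨R, N, inf_le_left, inf_le_right, hRN, hRp, hc, by omega, hdk, ?_,
    (dvd_mul_right _ _).trans hN'⟩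
  have hqd : q ∣ q ^ (7 - k) - q := Nat.dvd_sub (dvd_pow_self q (by omega)) dvd_rfl
  refine (Nat.Coprime.pow_right 2 ?_).dvd_of_dvd_mul_right ((dvd_mul_of_dvd_right hqd _).trans hN')
  exact (Nat.coprime_self_sub_right (by omega)).2 (Nat.coprime_one_right q)

/-- Orders four and five. -/
theorem not_prime_dvd_big {p : ℕ} [Fact p.Prime] [CharP F p] {X : Subgroup (GL (Fin 7) F)}
    (hX : NoCen X) (hP : PairTrans X) {x u : Fin 7 → F} (hxu : LinearIndependent F ![x, u])
    {r k : ℕ} [Fact r.Prime] (hr1 : ¬ r ∣ Fintype.card F - 1) (hk : k = 4 ∨ k = 5)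
    (hrk : r ∣ Fintype.card F ^ k - 1) (hmin : ∀ j, 0 < j → j < k → ¬ r ∣ Fintype.card F ^ j - 1)
    (huniq : ∀ d, 0 < d → d ≤ 5 → r ∣ Fintype.card F ^ d - 1 → d = k)
    (hdvd : r ∣ Nat.card (pairStab X x u)) :
    Fintype.card F ∣ k := by
  classical
  obtain ⟨R, N, hNX, hNR, hRN, hRp, hc, hw, hd, hqN, -⟩ :=
    setup (p := p) hP hxu hr1 (by omega) hrk huniq hdvd
  have hUinv : ∀ g ∈ N, ∀ v ∈ moveSpace R, lin g v ∈ moveSpace R := fun g hg =>
    fun v hv => moveSpace_inv (hNR hg) hv
  obtain ⟨S⟩ : Nonempty (Sylow p N) := inferInstance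
  obtain ⟨e, -, he⟩ := FiniteField.card F p
  have hqS : Fintype.card F ∣ Nat.card (S : Subgroup N) := by
    rw [he] at hqN ⊢
    exact S.pow_dvd_card_of_pow_dvd_card hqN
  refine hqS.trans (card_dvd_of_fixedFree (p := p) (r := r) (restrHom N (moveSpace R) hUinv)
    (R.subgroupOf N) S (hRp.of_equiv (Subgroup.subgroupOfEquivOfLe hRN).symm) S.isPGroup' ?_ hd
    (by omega) hmin ?_ ?_)
  · intro g _
    haveI : (R.subgroupOf N).Normal := Subgroup.normal_subgroupOf_of_le_normalizer hNR
    rw [Subgroup.normalizer_eq_top]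
    exact Subgroup.mem_top g
  · intro v hv
    refine Subtype.ext (Submodule.disjoint_def.1 hc.disjoint _ ?_ v.2)
    intro h hh
    exact congrArg Subtype.val (hv ⟨h, hRN hh⟩ hh)
  · intro g hg hg1
    by_contra hne
    have hfixU : ∀ v ∈ moveSpace R, lin (g : GL (Fin 7) F) v = v := fun v hv =>
      congrArg Subtype.val (LinearEquiv.congr_fun hg1 ⟨v, hv⟩)
    have hgp : IsPGroup p (Subgroup.zpowers (g : GL (Fin 7) F)) :=
      (S.isPGroup'.map N.subtype).to_le (Subgroup.zpowers_le.2 ⟨g, hg, rfl⟩)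
    set W := fixSpace R
    have hW0 : W ≠ ⊥ := fun h => by
      have := Submodule.finrank_eq_zero.2 h
      omega
    have hlt := finrank_range_lt hgp hW0 (fun v hv => fixSpace_inv (hNR g.2) hv)
    refine cen_of_unipotent (hNX g.2) (fun h => hne (Subtype.ext h)) hgp
      (S := W.map (lin (g : GL (Fin 7) F) - LinearMap.id)) (by omega) (fun v => ?_) hX
    obtain ⟨a, ha, b, hb, rfl⟩ :=
      Submodule.mem_sup.1 (hc.sup_eq_top.symm ▸ Submodule.mem_top : v ∈ W ⊔ moveSpace R)
    refine ⟨a, ha, ?_⟩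
    rw [LinearMap.sub_apply, LinearMap.id_apply, map_add, hfixU b hb, add_sub_add_right_eq_sub]

/-- No prime of order `3`, `4` or `5` divides a pair stabiliser, apart from small fields. -/
theorem not_prime_dvd {p : ℕ} [Fact p.Prime] [CharP F p] {X : Subgroup (GL (Fin 7) F)}
    (hX : NoCen X) (hP : PairTrans X) {x u : Fin 7 → F} (hxu : LinearIndependent F ![x, u])
    {r k : ℕ} (hr : r.Prime) (hr1 : ¬ r ∣ Fintype.card F - 1) (hk : k = 3 ∨ k = 4 ∨ k = 5)
    (hrk : r ∣ Fintype.card F ^ k - 1) (hmin : ∀ j, 0 < j → j < k → ¬ r ∣ Fintype.card F ^ j - 1)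
    (huniq : ∀ d, 0 < d → d ≤ 5 → r ∣ Fintype.card F ^ d - 1 → d = k)
    (hdvd : r ∣ Nat.card (pairStab X x u)) :
    (k = 5 ∧ Fintype.card F = 5) ∨ (k ≠ 5 ∧ (Fintype.card F = 2 ∨ Fintype.card F = 4)) := by
  classical
  haveI := Fact.mk hr
  set q := Fintype.card F with hq
  have hq2 : 2 ≤ q := Fintype.one_lt_card
  have four : ∀ {m : ℕ}, q ∣ m → m = 4 → q = 2 ∨ q = 4 := fun {m} h hm => by
    subst hm
    have := Nat.le_of_dvd (by norm_num) h
    interval_cases q <;> omega
  rcases hk with rfl | rfl | rfl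
  · obtain ⟨R, N, hNX, hNR, hRN, -, hc, hw, hd, -, hN⟩ :=
      setup (p := p) hP hxu hr1 (by omega) hrk huniq hdvd
    obtain ⟨t, ht, ht4, ht1, ht2, ht3⟩ := exists_t hq2
    haveI := Fact.mk ht
    have ht4' : t ∣ q ^ 4 - 1 := by
      have : (q ^ 2 - 1) * (q ^ 2 + 1) = q ^ 4 - 1 := by
        rw [mul_comm, ← Nat.sq_sub_sq (q ^ 2) 1]; ring_nf
      exact this ▸ dvd_mul_of_dvd_right ht4 _
    have htN : t ∣ Nat.card N := by
      rcases ht.dvd_mul.1 (ht4'.trans hN) with h | h
      · exact h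
      · exact absurd (ht.dvd_of_dvd_pow h) ht1
    obtain ⟨g, hg⟩ := exists_prime_orderOf_dvd_card' t htN
    have hUinv : ∀ g ∈ N, ∀ v ∈ moveSpace R, lin g v ∈ moveSpace R := fun g hg =>
      fun v hv => moveSpace_inv (hNR hg) hv
    haveI : Finite (moveSpace R ≃ₗ[F] moveSpace R) :=
      Finite.of_injective _ DFunLike.coe_injective
    have hgU : restrHom N (moveSpace R) hUinv g = 1 := by
      by_contra hne
      have h1 : orderOf (restrHom N (moveSpace R) hUinv g) = t := by
        refine orderOf_eq_prime ?_ hne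
        rw [← map_pow, ← hg, pow_orderOf_eq_one, map_one]
      refine ht3 ?_
      rw [← h1, ← card_linearEquiv_self hd]
      exact orderOf_dvd_natCard _
    obtain b := Module.finBasisOfFinrankEq F (moveSpace R) hd
    have hind : LinearIndependent F ![((b 0 : moveSpace R) : Fin 7 → F), (b 1 : moveSpace R)] := by
      have h := (b.linearIndependent.comp ![(0 : Fin 3), 1] (by decide)).map'
        (moveSpace R).subtype (Submodule.ker_subtype _)
      have e : (⇑(moveSpace R).subtype ∘ ⇑b ∘ ![(0 : Fin 3), 1]) =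
          ![((b 0 : moveSpace R) : Fin 7 → F), (b 1 : moveSpace R)] := by
        ext i : 1; fin_cases i <;> rfl
      rwa [e] at h
    have hfix : ∀ i, lin (g : GL (Fin 7) F) (b i : moveSpace R) = ((b i : moveSpace R) : Fin 7 → F) :=
      fun i => congrArg Subtype.val (LinearEquiv.congr_fun hgU (b i))
    have hgmem : (g : GL (Fin 7) F) ∈ pairStab X (b 0 : moveSpace R) (b 1 : moveSpace R) :=
      ⟨hNX g.2, ⟨1, one_ne_zero, by rw [one_smul, hfix]⟩, ⟨1, one_ne_zero, by rw [one_smul, hfix]⟩⟩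
    have htd : t ∣ Nat.card (pairStab X (b 0 : moveSpace R) (b 1 : moveSpace R)) := by
      have := orderOf_dvd_natCard (⟨_, hgmem⟩ : pairStab X (b 0 : moveSpace R) (b 1 : moveSpace R))
      rwa [Subgroup.orderOf_mk, Subgroup.orderOf_coe, hg] at this
    have key : ∀ j, 0 < j → j ≤ 5 → t ∣ q ^ j - 1 → j = 4 := by
      intro j hj hj5 h
      have cast : ∀ i, (t ∣ q ^ i - 1) ↔ (q : ZMod t) ^ i = 1 := fun i => by
        rw [← ZMod.natCast_eq_zero_iff, Nat.cast_sub (Nat.one_le_pow _ _ (by omega)), sub_eq_zero,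
          Nat.cast_pow, Nat.cast_one]
      have hc4 := (cast 4).1 ht4'
      have h1 : (q : ZMod t) ≠ 1 := fun e => ht1 (by simpa using (cast 1).2 (by rw [pow_one, e]))
      have h2 : (q : ZMod t) ^ 2 ≠ 1 := fun e => by
        rcases sq_eq_one_iff.1 e with e | e
        · exact h1 e
        · exact ht2 (by rw [← ZMod.natCast_eq_zero_iff]; push_cast; rw [e]; ring)
      have hj' := (cast j).1 h
      interval_cases j
      · exact absurd (by simpa using hj') h1
      · exact absurd hj' h2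
      · exact absurd (by simpa [pow_succ, hj'] using hc4) h1
      · rfl
      · exact absurd (by simpa [pow_succ, hc4] using hj') h1
    exact Or.inr ⟨by omega, four (not_prime_dvd_big (p := p) (r := t) (k := 4) hX hP hind ht1
      (Or.inl rfl) ht4' (fun j hj hj4 h => by have := key j hj (by omega) h; omega) key htd) rfl⟩
  · exact Or.inr ⟨by omega, four (not_prime_dvd_big (p := p) hX hP hxu hr1 (Or.inl rfl) hrk hmin
      huniq hdvd) rfl⟩
  · refine Or.inl ⟨rfl, ((Nat.dvd_prime (by norm_num)).1 (not_prime_dvd_big (p := p) hX hP hxu hr1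
      (Or.inr rfl) hrk hmin huniq hdvd)).resolve_left ?_⟩
    omega

end Cfsg.Agent.MaxSub.SingerSeven
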