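import Cfsg.Agent.MaxSub.SingerSeven.Basic

/-!
The image of the stabiliser of two points in the linear group of the five-dimensional quotient.
-/

set_option autoImplicit false
set_option linter.unusedSectionVars false
set_option linter.style.haveILetI false

namespace Cfsg.Agent.MaxSub.SingerSeven

open Matrix
open scoped MatrixGroups
open SingerFive Cfsg.Geo

variable {F : Type*} [Field F] [Fintype F]

/-- The pair stabiliser, times the scalars, embeds up to scalars in `GL₅`. -/
theorem pairStab_mul_dvd {X : Subgroup (GL (Fin 7) F)} (hX : NoCen X) (hP : SingerFive.PairTrans X)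
    (hXS : X ≤ Cfsg.Geo.specialLinear (Fin 7) F) {x u : Fin 7 → F}
    (hxu : LinearIndependent F ![x, u]) :
    Nat.card (pairStab X x u) * (Fintype.card F - 1) ∣
      Nat.gcd 7 (Fintype.card F - 1) *
        ∏ i : Fin 5, (Fintype.card F ^ 5 - Fintype.card F ^ (i : ℕ)) := by
  classical
  haveI : Fact (Nat.Prime 7) := ⟨by norm_num⟩
  set q := Fintype.card F with hqdef
  set L : Submodule F (Fin 7 → F) := Submodule.span F {x, u} with hLdef
  set H := pairStab X x u with hH
  have hinv : ∀ h ∈ H, L ≤ L.comap (lin h) := by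
    rintro h ⟨-, ⟨a, -, ex⟩, b, -, eu⟩ w hw
    obtain ⟨s, t, rfl⟩ := Submodule.mem_span_pair.1 hw
    rw [Submodule.mem_comap, map_add, map_smul, map_smul, ex, eu, smul_smul, smul_smul]
    exact Submodule.mem_span_pair.2 ⟨_, _, rfl⟩
  -- the action on the quotient, with the scalars
  let T : ↥H × Fˣ →* Module.End F ((Fin 7 → F) ⧸ L) :=
    { toFun := fun p => (p.2 : F) • L.mapQ L (lin (p.1 : GL (Fin 7) F)) (hinv _ p.1.2)
      map_one' := by
        refine Submodule.linearMap_qext _ (LinearMap.ext fun v => ?_)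
        simp [Submodule.mapQ_apply]
      map_mul' := fun p r => by
        refine Submodule.linearMap_qext _ (LinearMap.ext fun v => ?_)
        simp only [LinearMap.comp_apply, Module.End.mul_apply, LinearMap.smul_apply,
          Submodule.mkQ_apply, Submodule.mapQ_apply, map_smul, Prod.fst_mul, Prod.snd_mul,
          Subgroup.coe_mul, Units.val_mul, lin_mul_apply, smul_smul, mul_comm (r.2 : F)] }
  let Φ : ↥H × Fˣ →* (Module.End F ((Fin 7 → F) ⧸ L))ˣ := T.toHomUnits
  -- the units of the quotient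
  have hL2 : Module.finrank F L = 2 := by
    rw [hLdef, show ({x, u} : Set (Fin 7 → F)) = Set.range ![x, u] by simp [Set.pair_comm],
      finrank_span_eq_card hxu, Fintype.card_fin]
  have hQ : Module.finrank F ((Fin 7 → F) ⧸ L) = 5 := by
    have := Submodule.finrank_quotient_add_finrank L
    rw [hL2, Module.finrank_fin_fun] at this
    omega
  let b := Module.finBasisOfFinrankEq F _ hQ
  have hGL : Nat.card (Module.End F ((Fin 7 → F) ⧸ L))ˣ = ∏ i : Fin 5, (q ^ 5 - q ^ (i : ℕ)) := by
    rw [hqdef, ← Matrix.card_GL_field]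
    exact Nat.card_congr (Units.mapEquiv (LinearMap.toMatrixAlgEquiv b).toRingEquiv.toMulEquiv).toEquiv
  have hrange : Nat.card Φ.range ∣ ∏ i : Fin 5, (q ^ 5 - q ^ (i : ℕ)) :=
    hGL ▸ Subgroup.card_subgroup_dvd_card _
  -- the kernel consists of scalars
  have hker : ∀ p ∈ Φ.ker, ∀ v, lin ((p : ↥H × Fˣ).1 : GL (Fin 7) F) v = ((p.2 : F))⁻¹ • v := by
    intro p hp
    have e : T p = 1 := congrArg Units.val (MonoidHom.mem_ker.1 hp)
    refine scalar_of_fix hX hP hxu p.1.2 (inv_ne_zero p.2.ne_zero) fun v => ?_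
    have h1 : (p.2 : F) • lin (p.1 : GL (Fin 7) F) v - v ∈ L := by
      rw [← Submodule.Quotient.eq]
      have := LinearMap.congr_fun e (Submodule.Quotient.mk v)
      simpa [T, Submodule.mapQ_apply, Submodule.Quotient.mk_smul] using this
    have := L.smul_mem (p.2 : F)⁻¹ h1
    rwa [smul_sub, inv_smul_smul₀ p.2.ne_zero] at this
  have hkerdvd : Nat.card Φ.ker ∣ Nat.gcd 7 (q - 1) := by
    rw [hqdef, ← SingerGroup.card_scalars_sl (F := F) (n := 7)]
    let ι : ↥Φ.ker →* GL (Fin 7) F := (H.subtype.comp (MonoidHom.fst _ _)).comp Φ.ker.subtype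
    have hinj : Function.Injective ι := by
      rintro ⟨p, hp⟩ ⟨r, hr⟩ h
      have h' : (p.1 : GL (Fin 7) F) = (r.1 : GL (Fin 7) F) := h
      have hv := hker p hp x
      rw [h', hker r hr x] at hv
      have : (p.2 : F) = r.2 := inv_injective (smul_left_injective F (hxu.ne_zero 0) hv.symm)
      exact Subtype.ext (Prod.ext (Subtype.ext h') (Units.ext this))
    rw [← Nat.card_congr (MonoidHom.ofInjective hinj).toEquiv.symm]
    refine Subgroup.card_dvd_of_le ?_
    rintro _ ⟨⟨p, hp⟩, rfl⟩
    refine ⟨(mem_scalars_iff _).2 ⟨p.2⁻¹, ?_⟩, hXS p.1.2.1⟩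
    refine Matrix.toLin'.injective (LinearMap.ext fun v => ?_)
    rw [Units.val_inv_eq_inv_val]
    show lin (p.1 : GL (Fin 7) F) v = Matrix.toLin' (((p.2 : F))⁻¹ • (1 : Matrix (Fin 7) (Fin 7) F)) v
    simpa [Matrix.smul_mulVec] using hker p hp v
  -- orders
  have hsplit : Nat.card (↥H × Fˣ) = Nat.card Φ.range * Nat.card Φ.ker := by
    rw [Subgroup.card_eq_card_quotient_mul_card_subgroup Φ.ker,
      Nat.card_congr (QuotientGroup.quotientKerEquivRange Φ).toEquiv]
  rw [Nat.card_prod, Nat.card_units, Nat.card_eq_fintype_card (α := F)] at hsplit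
  rw [hsplit, mul_comm (Nat.card Φ.range)]
  exact Nat.mul_dvd_mul hkerdvd hrange

end Cfsg.Agent.MaxSub.SingerSeven
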