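import Cfsg.Agent.MaxSub.SingerSeven.Def
import Cfsg.Agent.MaxSub.SingerSeven.PairTrans

/-!
The order of a pair-transitive overgroup of a Singer normaliser, and the congruence from the
self-centralising Singer torus.
-/

set_option autoImplicit false
set_option linter.style.haveILetI false

namespace Cfsg.Agent.MaxSub.SingerSeven

open Matrix Cfsg.Geo
open scoped LinearAlgebra.Projectivization MatrixGroups
open SingerGroup

variable {F : Type*} [Field F]

theorem gl_smul_eq_lin {n : ℕ} (g : GL (Fin n) F) (v : Fin n → F) : g • v = SingerFive.lin g v := by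
  rw [Matrix.toLin'_apply]
  rfl

/-- The order of a pair-transitive group. -/
theorem card_eq_pairStab [Fintype F] {n : ℕ} {X : Subgroup (GL (Fin n) F)}
    (hP : SingerFive.PairTrans X) {x u : Fin n → F} (hxu : LinearIndependent F ![x, u]) :
    Nat.card X = bigM (Fintype.card F) n * (bigM (Fintype.card F) n - 1) *
      Nat.card (pairStab X x u) := by
  classical
  have hx : x ≠ 0 := by simpa using hxu.ne_zero 0
  have hu : u ≠ 0 := by simpa using hxu.ne_zero 1
  haveI : Finite (ℙ F (Fin n → F)) := inferInstance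
  letI := Fintype.ofFinite (ℙ F (Fin n → F))
  let p : ℙ F (Fin n → F) × ℙ F (Fin n → F) :=
    (Projectivization.mk F x hx, Projectivization.mk F u hu)
  have hind : ∀ {a b : Fin n → F} (ha : a ≠ 0) (hb : b ≠ 0),
      Projectivization.mk F a ha ≠ Projectivization.mk F b hb ↔ LinearIndependent F ![a, b] := by
    intro a b ha hb
    rw [LinearIndependent.pair_iff' ha, Ne, eq_comm, Projectivization.mk_eq_mk_iff']
    push Not
    rfl
  have horb : MulAction.orbit X p = {z | z.1 ≠ z.2} := by
    ext ⟨z, w⟩
    constructor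
    · rintro ⟨g, hg⟩ hzw
      have h1 : g • (Projectivization.mk F x hx) = z := congrArg Prod.fst hg
      have h2 : g • (Projectivization.mk F u hu) = w := congrArg Prod.snd hg
      exact ((hind hx hu).mpr hxu) (smul_left_cancel g ((h1.trans hzw).trans h2.symm))
    · intro hzw
      obtain ⟨g, hg, a, b, ha, hb⟩ := hP x u z.rep w.rep hxu
        ((hind z.rep_nonzero w.rep_nonzero).mp (by rwa [z.mk_rep, w.mk_rep]))
      refine ⟨⟨g, hg⟩, Prod.ext ?_ ?_⟩
      · show g • (Projectivization.mk F x hx) = z
        conv_rhs => rw [← z.mk_rep]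
        rw [Projectivization.smul_mk, Projectivization.mk_eq_mk_iff']
        exact ⟨a, ha.symm⟩
      · show g • (Projectivization.mk F u hu) = w
        conv_rhs => rw [← w.mk_rep]
        rw [Projectivization.smul_mk, Projectivization.mk_eq_mk_iff']
        exact ⟨b, hb.symm⟩
  have hcard : Nat.card (MulAction.orbit X p) =
      bigM (Fintype.card F) n * (bigM (Fintype.card F) n - 1) := by
    have hN : Fintype.card (ℙ F (Fin n → F)) = bigM (Fintype.card F) n := by
      rw [← Nat.card_eq_fintype_card, Projectivization.card_of_finrank F (Fin n → F)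
        (Module.finrank_fin_fun F), Nat.card_eq_fintype_card]
      rfl
    have e : ({z : ℙ F (Fin n → F) × ℙ F (Fin n → F) | z.1 ≠ z.2}) =
        ↑(Finset.univ : Finset (ℙ F (Fin n → F))).offDiag := by
      ext z; simp
    rw [Nat.card_coe_set_eq, horb, e, Set.ncard_coe_finset, Finset.offDiag_card, Finset.card_univ,
      hN, Nat.mul_sub_one]
  have hstab : Nat.card (MulAction.stabilizer X p) = Nat.card (pairStab X x u) := by
    have key : ∀ (g : GL (Fin n) F) {v : Fin n → F} (hv : v ≠ 0),
        g • Projectivization.mk F v hv = Projectivization.mk F v hv ↔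
          ∃ a : F, a ≠ 0 ∧ SingerFive.lin g v = a • v := by
      intro g v hv
      rw [Projectivization.smul_mk, Projectivization.mk_eq_mk_iff', gl_smul_eq_lin]
      constructor
      · rintro ⟨a, ha⟩
        refine ⟨a, ?_, ha.symm⟩
        rintro rfl
        rw [zero_smul] at ha
        exact hv (by rw [← SingerFive.lin_inv_apply g v, ← ha, map_zero])
      · rintro ⟨a, -, ha⟩
        exact ⟨a, ha.symm⟩
    refine Nat.card_congr
      { toFun := fun g => ⟨(g.1 : GL (Fin n) F), g.1.2,
          (key _ hx).mp (congrArg Prod.fst (MulAction.mem_stabilizer_iff.mp g.2)),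
          (key _ hu).mp (congrArg Prod.snd (MulAction.mem_stabilizer_iff.mp g.2))⟩
        invFun := fun g => ⟨⟨g.1, g.2.1⟩, MulAction.mem_stabilizer_iff.mpr
          (Prod.ext ((key _ hx).mpr g.2.2.1) ((key _ hu).mpr g.2.2.2))⟩
        left_inv := fun _ => rfl
        right_inv := fun _ => rfl }
  rw [← hcard, ← hstab, ← Nat.card_prod]
  exact (Nat.card_congr (MulAction.orbitProdStabilizerEquivGroup X p)).symm

/-- In a configuration the conjugates of `A` number `1` modulo `m`. -/
theorem index_normalizer_modEq {G : Type*} [Group G] [Finite G] {Ω : Type*} [MulAction G Ω]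
    {e m k : ℕ} {A : Subgroup G} (h : SingerTwoTrans.Cfg G Ω e m k A) (hme : m.Coprime e) :
    (Subgroup.normalizer (A : Set G)).index ≡ 1 [MOD m] := by
  classical
  letI := Fintype.ofFinite G
  letI := Fintype.ofFinite A
  set N := Subgroup.normalizer (A : Set G)
  letI := Fintype.ofFinite (MulAction.orbitRel.Quotient A (G ⧸ N))
  rw [Subgroup.index_eq_card, Nat.card_congr
    (MulAction.selfEquivSigmaOrbitsQuotientStabilizer A (G ⧸ N)), Nat.card_sigma]
  let q0 : MulAction.orbitRel.Quotient A (G ⧸ N) := Quotient.mk'' ((1 : G) : G ⧸ N)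
  rw [← Finset.add_sum_erase _ _ (Finset.mem_univ q0)]
  have hfix : ∀ a : A, a • ((1 : G) : G ⧸ N) = ((1 : G) : G ⧸ N) := fun a => by
    have h1 : (((a : G) * 1 : G) : G ⧸ N) = ((1 : G) : G ⧸ N) := by
      rw [QuotientGroup.eq]
      simpa using Subgroup.le_normalizer (inv_mem a.2)
    exact h1
  have h0 : Nat.card (A ⧸ MulAction.stabilizer A (Quotient.out q0)) = 1 := by
    have : Quotient.out q0 = ((1 : G) : G ⧸ N) := by
      obtain ⟨a, ha⟩ := (MulAction.orbitRel_apply (G := A)).mp
        (Quotient.mk_out (s := MulAction.orbitRel A (G ⧸ N)) ((1 : G) : G ⧸ N))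
      exact ha.symm.trans (hfix a)
    rw [← Subgroup.index_eq_card, Subgroup.index_eq_one]
    exact eq_top_iff.mpr fun a _ => MulAction.mem_stabilizer_iff.mpr (this ▸ hfix a)
  rw [h0]
  conv_rhs => rw [← add_zero 1]
  refine Nat.ModEq.add_left 1 (Nat.modEq_zero_iff_dvd.mpr (Finset.dvd_sum fun q hq => ?_))
  have hstab : MulAction.stabilizer A (Quotient.out q) = ⊥ := by
    rw [Subgroup.eq_bot_iff_forall]
    intro a ha
    by_contra ha1
    obtain ⟨g, hg⟩ := QuotientGroup.mk_surjective (Quotient.out q)
    have ha' : (a : G) • (g : G ⧸ N) = (g : G ⧸ N) := by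
      rw [hg]; exact MulAction.mem_stabilizer_iff.mp ha
    rw [MulAction.Quotient.smul_mk, QuotientGroup.eq] at ha'
    have hmem : g⁻¹ * (a : G) * g ∈ N := by
      have := inv_mem ha'
      simpa [mul_assoc] using this
    haveI : (A.subgroupOf N).Normal := Subgroup.normal_in_normalizer
    have hA : g⁻¹ * (a : G) * g ∈ A := by
      let y : N := ⟨_, hmem⟩
      have h1 : orderOf (y : N ⧸ A.subgroupOf N) ∣ e := by
        rw [← h.relN, Subgroup.relIndex, Subgroup.index_eq_card]
        exact orderOf_dvd_natCard _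
      have h2 : orderOf (y : N ⧸ A.subgroupOf N) ∣ m := by
        refine orderOf_dvd_of_pow_eq_one ?_
        have : y ^ m = 1 := by
          apply Subtype.ext
          show (g⁻¹ * (a : G) * g) ^ m = 1
          have ham : (a : G) ^ m = 1 := by
            rw [← h.card_A, ← Subgroup.coe_pow, pow_card_eq_one', Subgroup.coe_one]
          have := conj_pow (a := g⁻¹) (b := (a : G)) (i := m)
          rw [inv_inv] at this
          rw [this, ham]
          group
        rw [← QuotientGroup.mk_pow, this, QuotientGroup.mk_one]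
      have h3 : orderOf (y : N ⧸ A.subgroupOf N) = 1 :=
        Nat.dvd_one.mp (hme ▸ Nat.dvd_gcd h2 h1)
      rw [orderOf_eq_one_iff, QuotientGroup.eq_one_iff, Subgroup.mem_subgroupOf] at h3
      exact h3
    have hgN : g ∈ N := h.conj_mem_normalizer a.2 (fun e1 => ha1 (Subtype.ext e1)) hA
    have h1 : Quotient.out q = ((1 : G) : G ⧸ N) := by
      rw [← hg, QuotientGroup.eq]
      simpa using inv_mem hgN
    apply (Finset.mem_erase.mp hq).1
    rw [← Quotient.out_eq' q, h1]
  rw [← Subgroup.index_eq_card, hstab, Subgroup.index_bot, h.card_A]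

/-- The congruence for the pair stabiliser. -/
theorem congr_pairStab [Fintype F] {K : Subalgebra F (Matrix (Fin 7) (Fin 7) F)}
    (hK : IsFieldSubalgebra 7 K) {X : Subgroup (GL (Fin 7) F)}
    (hNX : subalgebraNormalizer K ⊓ specialLinear (Fin 7) F ≤ X)
    (hXS : X ≤ specialLinear (Fin 7) F) (hne : ¬ X ≤ subalgebraNormalizer K)
    {x u : Fin 7 → F} (hxu : LinearIndependent F ![x, u]) :
    bigM (Fintype.card F) 7 ∣
      Nat.gcd 7 (Fintype.card F - 1) * (Nat.card (pairStab X x u) + 7) := by
  classical
  haveI : Fact (7 : ℕ).Prime := ⟨by norm_num⟩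
  haveI : NeZero 7 := ⟨by norm_num⟩
  haveI : Finite PGL(7, F) := Finite.of_surjective _ Matrix.ProjGenLinGroup.mk_surjective
  set q := Fintype.card F with hqdef
  have hq : 2 ≤ q := Fintype.one_lt_card
  obtain ⟨m, hm, hmn⟩ := exists_m (Fact.out : (7 : ℕ).Prime) ⟨3, rfl⟩ hq
  set c := Nat.gcd 7 (q - 1) with hc
  have hc15 : c = 1 ∨ c = 7 := (Nat.dvd_prime (by norm_num)).mp (Nat.gcd_dvd_left _ _)
  have hlarge : 7 * 7 + 1 < m ∧ 7 * (c + 2) < m := by
    have hM := bigM_seven q
    rw [bM, hm] at hM
    rcases hc15 with h | h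
    · rw [h, one_mul] at hM
      have h6 := Nat.pow_le_pow_left hq 6
      rw [h]
      constructor <;> omega
    · rw [h] at hM
      have h7 : 7 ∣ q - 1 := h ▸ Nat.gcd_dvd_right _ _
      have hq8 : 8 ≤ q := by have := Nat.le_of_dvd (by omega) h7; omega
      have h6 := Nat.pow_le_pow_left hq8 6
      rw [h]
      constructor <;> omega
  obtain ⟨k, -, hcfg⟩ := exists_cfg ⟨3, rfl⟩ hK hNX hXS hne hm hmn hlarge.1 hlarge.2
    (Projectivization.mk F x (by simpa using hxu.ne_zero 0))
  have hcardX : Nat.card X = c * Nat.card (proj X) := by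
    let f : X →* PGL(7, F) := Matrix.ProjGenLinGroup.mk.comp X.subtype
    have hrange : f.range = proj X := by rw [MonoidHom.range_comp, Subgroup.range_subtype]
    have h1 := Subgroup.card_mul_index f.ker
    rw [Subgroup.index_ker, hrange] at h1
    have h2 : Nat.card f.ker = c := by
      rw [hc, hqdef, ← card_scalars_sl (F := F) (n := 7)]
      refine Nat.card_congr
        { toFun := fun x => ⟨(x.1 : GL (Fin 7) F), mk_eq_one_iff.mp x.2, hXS x.1.2⟩
          invFun := fun y => ⟨⟨y.1, singerSub_le hK hNX ⟨scalar_mem_K y.2.1, y.2.2⟩⟩,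
            mk_eq_one_iff.mpr y.2.1⟩
          left_inv := fun _ => rfl
          right_inv := fun _ => rfl }
    rw [← h1, h2]
  letI := Fintype.ofFinite (proj X)
  letI := Fintype.ofFinite ((singerImage K).subgroupOf (proj X))
  have hidx := index_normalizer_modEq hcfg hmn
  have hG := Subgroup.card_mul_index
    (Subgroup.normalizer (((singerImage K).subgroupOf (proj X)) : Set (proj X)))
  have hG' := (congrArg (· * _) (SingerTwoTrans.card_normalizer hcfg)).symm.trans hG
  set I := (Subgroup.normalizer (((singerImage K).subgroupOf (proj X)) : Set (proj X))).index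
  set S := Nat.card (pairStab X x u)
  have hX := card_eq_pairStab (pairTrans hK hNX hXS hne) hxu
  set M := bigM q 7 with hMdef
  have hMpos : 0 < M := by rw [hMdef, bigM_seven, bM]; omega
  have key : (M - 1) * S = 7 * I := by
    refine Nat.eq_of_mul_eq_mul_left hMpos ?_
    rw [← mul_assoc, ← hX, hcardX, ← hG', hm]
    ring
  obtain ⟨J, hJ⟩ := (Nat.modEq_iff_dvd.mp hidx.symm)
  have hdvd : (m : ℤ) ∣ (S : ℤ) + 7 := by
    refine ⟨c * S - 7 * J, ?_⟩
    have hk : ((M : ℤ) - 1) * S = 7 * I := by
      have := congrArg (Nat.cast : ℕ → ℤ) key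
      push_cast [Nat.cast_sub (show 1 ≤ M by omega)] at this
      exact this
    have hM' : (M : ℤ) = c * m := by exact_mod_cast congrArg (Nat.cast : ℕ → ℤ) hm
    push_cast at hJ
    linear_combination (-1 : ℤ) * hk - 7 * hJ + (S : ℤ) * hM'
  have hd' : m ∣ S + 7 := by exact_mod_cast hdvd
  rw [hm]
  exact mul_dvd_mul_left c hd'

end Cfsg.Agent.MaxSub.SingerSeven
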