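import Cfsg.Agent.MaxSub.SingerSeven.Basic
import Cfsg.Agent.MaxSub.SingerSeven.PairStab
import Cfsg.Agent.MaxSub.SingerSeven.PairTrans
import Cfsg.Agent.MaxSub.SingerSeven.Pigeon
import Cfsg.Agent.MaxSub.SingerSeven.Image
import Cfsg.Agent.MaxSub.SingerSeven.Bound
import Cfsg.Agent.MaxSub.SingerSeven.Exclude
import Cfsg.Agent.MaxSub.SingerSeven.Arith
import Cfsg.Agent.MaxSub.SingerN.Full
import Cfsg.Agent.MaxSub.Proper

/-!
The normaliser of a Singer torus in `SL₇(q)` is maximal.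
-/

set_option autoImplicit false
set_option linter.style.haveILetI false

namespace Cfsg.Agent.MaxSub.SingerSeven

open Matrix Cfsg.Geo
open scoped MatrixGroups
open SingerFive SingerGroup

variable {F : Type*} [Field F] [Fintype F]

theorem bigM_seven_eq (q : ℕ) :
    bigM q 7 = q ^ 6 + q ^ 5 + q ^ 4 + q ^ 3 + q ^ 2 + q + 1 := by
  simp [bigM, Finset.sum_range_succ]; ring

/-- An overgroup of a Singer normaliser which does not normalise the field contains a centre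
element. -/
theorem not_noCen {K : Subalgebra F (Matrix (Fin 7) (Fin 7) F)} (hK : IsFieldSubalgebra 7 K)
    {X : Subgroup (GL (Fin 7) F)} (hNX : subalgebraNormalizer K ⊓ specialLinear (Fin 7) F ≤ X)
    (hXS : X ≤ specialLinear (Fin 7) F) (hne : ¬ X ≤ subalgebraNormalizer K) : ¬ NoCen X := by
  classical
  intro hX
  haveI : Fact (Nat.Prime 7) := ⟨by norm_num⟩
  have hP : PairTrans X := pairTrans hK hNX hXS hne
  obtain ⟨p, hchar⟩ := CharP.exists F
  haveI : Fact p.Prime := ⟨CharP.char_is_prime F p⟩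
  obtain ⟨f, hp, hqf⟩ := FiniteField.card F p
  set q := Fintype.card F with hqdef
  have hq : 2 ≤ q := Fintype.one_lt_card
  set g := Nat.gcd 7 (q - 1) with hgdef
  have hg0 : 0 < g := Nat.gcd_pos_of_pos_left _ (by norm_num)
  obtain ⟨x, hx⟩ : ∃ v : Fin 7 → F, v ≠ 0 := exists_ne 0
  obtain ⟨u, hxu⟩ := SingerFive.exists_pair (by norm_num) hx
  set S := Nat.card (pairStab X x u) with hSdef
  have hgS : g ∣ S := by
    rw [hgdef, ← card_scalars_sl (F := F) (n := 7)]
    refine Subgroup.card_dvd_of_le fun c hc => ?_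
    have hcX : c ∈ X := singerSub_le hK hNX ⟨scalar_mem_K hc.1, hc.2⟩
    obtain ⟨a, ha⟩ := (mem_scalars_iff c).mp hc.1
    have hact : ∀ v, lin c v = (a : F) • v := fun v => by
      rw [Matrix.toLin'_apply, ha, Matrix.smul_mulVec, Matrix.one_mulVec]
    exact ⟨hcX, ⟨a, a.ne_zero, hact x⟩, a, a.ne_zero, hact u⟩
  obtain ⟨s, hs⟩ := hgS
  have hs0 : s ≠ 0 := by
    rintro rfl
    rw [mul_zero] at hs
    exact Nat.card_pos.ne' hs
  obtain ⟨a, u', hu', hsu⟩ := Nat.exists_eq_pow_mul_and_not_dvd hs0 p hp.ne_one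
  subst hsu
  -- the order of `X`
  have hcard := card_eq_pairStab hP hxu
  rw [← hSdef, ← hqdef, hs, bigM_seven_eq] at hcard
  set C := (q ^ 6 + q ^ 5 + q ^ 4 + q ^ 3 + q ^ 2 + q + 1) *
    (q ^ 5 + q ^ 4 + q ^ 3 + q ^ 2 + q + 1) * g * u' with hC
  have hcard' : Nat.card X = p ^ ((f : ℕ) + a) * C := by
    rw [hcard, show q ^ 6 + q ^ 5 + q ^ 4 + q ^ 3 + q ^ 2 + q + 1 - 1 =
      q * (q ^ 5 + q ^ 4 + q ^ 3 + q ^ 2 + q + 1) by
      rw [Nat.add_sub_cancel]; ring, hC, pow_add, ← hqf]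
    ring
  have hpq : p ∣ q := hqf ▸ dvd_pow_self p f.ne_zero
  have hcopC : Nat.Coprime p C := by
    have h1 : Nat.Coprime p (q ^ 6 + q ^ 5 + q ^ 4 + q ^ 3 + q ^ 2 + q + 1) := by
      refine hp.coprime_iff_not_dvd.2 fun h => hp.not_dvd_one ((Nat.dvd_add_right ?_).1 h)
      exact dvd_add (dvd_add (dvd_add (dvd_add (dvd_add (dvd_pow hpq (by norm_num))
        (dvd_pow hpq (by norm_num))) (dvd_pow hpq (by norm_num))) (dvd_pow hpq (by norm_num)))
        (dvd_pow hpq (by norm_num))) hpq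
    have h2 : Nat.Coprime p (q ^ 5 + q ^ 4 + q ^ 3 + q ^ 2 + q + 1) := by
      refine hp.coprime_iff_not_dvd.2 fun h => hp.not_dvd_one ((Nat.dvd_add_right ?_).1 h)
      exact dvd_add (dvd_add (dvd_add (dvd_add (dvd_pow hpq (by norm_num))
        (dvd_pow hpq (by norm_num))) (dvd_pow hpq (by norm_num))) (dvd_pow hpq (by norm_num))) hpq
    have h3 : Nat.Coprime p g := by
      refine hp.coprime_iff_not_dvd.2 fun h => hp.not_dvd_one ?_
      have h4 : p ∣ q - 1 := h.trans (Nat.gcd_dvd_right _ _)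
      have := Nat.dvd_sub hpq h4
      rwa [Nat.sub_sub_self (by omega)] at this
    exact Nat.Coprime.mul_right (Nat.Coprime.mul_right (Nat.Coprime.mul_right h1 h2) h3)
      (hp.coprime_iff_not_dvd.2 hu')
  have ha : 5 * (f : ℕ) ≤ a := by
    have h6 : q ^ 6 ∣ Nat.card X := hP.pow_dvd_card (by norm_num)
    rw [hcard', hqf, ← pow_mul] at h6
    have := (Nat.pow_dvd_pow_iff_le_right hp.one_lt).1
      ((Nat.Coprime.pow_left _ hcopC).dvd_of_dvd_mul_right h6)
    omega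
  have ha' : a ≤ 9 * (f : ℕ) := by
    obtain ⟨Q⟩ : Nonempty (Sylow p X) := inferInstance
    have h1 : p ^ ((f : ℕ) + a) ∣ Nat.card (Q : Subgroup X) :=
      Q.pow_dvd_card_of_pow_dvd_card (hcard' ▸ dvd_mul_right _ _)
    have h2 := pPart_le (p := p) hX ((Q : Subgroup X).map X.subtype) (Q.isPGroup'.map _)
      (Subgroup.map_subtype_le _)
    rw [Subgroup.card_map_of_injective (Subgroup.subtype_injective X)] at h2
    have h3 := (Nat.le_of_dvd Nat.card_pos h1).trans h2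
    rw [← hqdef, hqf, ← pow_mul] at h3
    have := (Nat.pow_le_pow_iff_right hp.one_lt).1 h3
    omega
  have hM : bigM q 7 ∣ g * (g * (p ^ a * u') + 7) := by
    have := congr_pairStab hK hNX hXS hne hxu
    rwa [← hSdef, hs] at this
  have hT := dvd_T hp hqf hu' hs hg0 (pairStab_mul_dvd hX hP hXS hxu)
  have hexcl : ∀ r : ℕ, r.Prime → r ∣ u' → ¬ (r ∣ q - 1 ∨ r ∣ q + 1) →
      ∃ k, (∀ d, 0 < d → d ≤ 5 → r ∣ q ^ d - 1 → d = k) ∧
        ((k = 5 ∧ q = 5) ∨ (k ≠ 5 ∧ (q = 2 ∨ q = 4))) := by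
    intro r hr hru hn
    push Not at hn
    have h' : r ∣ (q - 1) ^ 4 * (q + 1) ^ 2 *
        ((q ^ 2 + 1) * (q ^ 2 + q + 1) * (q ^ 4 + q ^ 3 + q ^ 2 + q + 1)) :=
      (hru.trans hT).trans (dvd_of_eq (by ring))
    have h'' : r ∣ (q ^ 2 + 1) * (q ^ 2 + q + 1) * (q ^ 4 + q ^ 3 + q ^ 2 + q + 1) := by
      rcases hr.dvd_mul.1 h' with h | h
      · rcases hr.dvd_mul.1 h with h | h
        · exact absurd (hr.dvd_of_dvd_pow h) hn.1
        · exact absurd (hr.dvd_of_dvd_pow h) hn.2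
      · exact h
    obtain ⟨k, hk, hrk, hmin, huniq⟩ := exists_first hq hr hn.1 hn.2 h''
    have hrS : r ∣ S := hs ▸ Dvd.dvd.mul_left (Dvd.dvd.mul_left hru _) _
    exact ⟨k, huniq, not_prime_dvd (p := p) hX hP hxu hr hn.1 hk hrk hmin huniq hrS⟩
  refine no_solution hp f.2 hqf hgdef ha ha' hu' ?_ (bigM_seven_eq q ▸ hM)
  by_cases h5 : q = 5
  · exact Or.inr (Or.inr ⟨h5, hT⟩)
  by_cases h24 : q = 2 ∨ q = 4
  · refine Or.inr (Or.inl ⟨h24, dvd_bound_five hq hT fun r hr hru hr5 => ?_⟩)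
    by_contra hn
    obtain ⟨k, huniq, hk⟩ := hexcl r hr hru hn
    have hk5 : 5 = k := by
      refine huniq 5 (by norm_num) le_rfl (hr5.trans ⟨q - 1, ?_⟩)
      have := bigM_mul q 5 (by omega)
      simp [bigM, Finset.sum_range_succ] at this
      rw [show q ^ 5 - 1 = (1 + q + q ^ 2 + q ^ 3 + q ^ 4) * (q - 1) by omega]
      ring
    rcases hk with ⟨-, h⟩ | ⟨h, -⟩
    · exact h5 h
    · exact h hk5.symm
  refine Or.inl (dvd_bound_gen hq hT fun r hr hru => ?_)
  by_contra hn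
  obtain ⟨k, -, hk⟩ := hexcl r hr hru hn
  rcases hk with ⟨-, h⟩ | ⟨-, h⟩
  · exact h5 h
  · exact h24 h

/-- The normaliser of a degree-seven field, in `SL₇(q)`, is maximal. -/
theorem singer_maximal {K : Subalgebra F (Matrix (Fin 7) (Fin 7) F)} (hK : IsFieldSubalgebra 7 K) :
    IsMaximalIn (specialLinear (Fin 7) F) (subalgebraNormalizer K ⊓ specialLinear (Fin 7) F) := by
  classical
  refine ⟨lt_of_le_not_ge inf_le_right fun hle =>
    MaxSub.not_specialLinear_le_normalizer (by norm_num) (by simp) hK (hle.trans inf_le_left),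
    fun X hX hXS => ?_⟩
  by_cases hne : X ≤ subalgebraNormalizer K
  · exact Or.inl (le_antisymm (le_inf hne hXS) hX)
  · have h := not_noCen hK hX hXS hne
    simp only [NoCen, not_forall, not_not] at h
    obtain ⟨g, x, u, hg⟩ := h
    exact Or.inr (le_antisymm hXS
      (SingerN.specialLinear_le_of_cen (by norm_num) (pairTrans hK hX hXS hne) hg))

end Cfsg.Agent.MaxSub.SingerSeven
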